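import Cfsg.Agent.H882.Ten.RadFour
import Cfsg.Agent.H882.Ten.Form
import Cfsg.Agent.H883.Sub
import Cfsg.Agent.H880.TI
import Cfsg.Agent.S0215
import Cfsg.Agent.S0058
import Cfsg.Agent.Lib.Cores
import Cfsg.Agent.Lib.KleinGen
import Cfsg.Agent.Lib.SylowNormalInf
set_option linter.all false

-- part: H932/ThreeRoot
section
/-!
`O₃ ⊗ O₄⁻` in `Ω₁₂⁻(q)`, `q` odd: root elements. Variant of the lemmas of `H882/Ten` for a space `W` of Witt
index one; the hypothesis `Good QW` is replaced by the transitivity of `E QW` on nonzero singular vectors.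
-/

set_option autoImplicit false
set_option linter.unusedSimpArgs false
set_option linter.unusedSectionVars false

namespace Cfsg.Agent.H932.Three

open QuadraticMap hiding proj
open Cfsg.Agent.LieClassical.OrthCore Cfsg.Agent.LieClassical.OrthTrans Cfsg.Agent.H883.Root
open Cfsg.Agent Cfsg.Agent.H882.Ten

variable {F : Type*} {U : Type*} {W : Type*} {V : Type*} [Field F] [AddCommGroup U] [Module F U]
  [AddCommGroup W] [Module F W] [AddCommGroup V] [Module F V]
  {t : U →ₗ[F] W →ₗ[F] V} {QU : QuadraticForm F U} {QW : QuadraticForm F W} {Q : QuadraticForm F V}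
  {X : Subgroup (V ≃ₗ[F] V)} {S : TSt t QU QW Q}

/-- The hypotheses on an overgroup `X` used below. -/
structure Ov (S : TSt t QU QW Q) (X : Subgroup (V ≃ₗ[F] V)) : Prop where
  le : X ≤ O Q
  rU : ∀ k ∈ E QU, Cfsg.Agent.H882.Ten.rU S.ten k ∈ X
  rW : ∀ l ∈ E QW, Cfsg.Agent.H882.Ten.rW S.ten l ∈ X
  tr : ∀ {x x' : W}, QW x = 0 → QW x' = 0 → x ≠ 0 → x' ≠ 0 → ∃ l ∈ E QW, l x = x'
  hG : Good Q
  dU : 3 ≤ Module.finrank F U
  dW : 3 ≤ Module.finrank F W
  sU : ∃ x y : U, Hyp QU x y
  sW : ∃ x y : W, Hyp QW x y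

namespace Ov

variable (hX : Ov S X)

include hX

theorem has_line {u y y' : U} {w : W} (hu : QU u = 0) (hw : QW w = 0) (hw0 : w ≠ 0)
    (hy : polar QU u y = 0) (hy' : polar QU u y' = 0) (hyy : polar QU y' y ≠ 0)
    (h1 : Has Q X (t u w) (t y w)) (h2 : Has Q X (t u w) (t y' w)) (z : W) : Has Q X (t u w) (t u z) := by
  obtain ⟨w0, hw0'⟩ := LieClassical.OrthTrans.exists_hyp S.ndW hw hw0
  refine op_ind hw0' (P := fun z => Has Q X (t u w) (t u z)) ?_ ?_ ?_ z
  · intro a c ha hc
    exact (ha.add hc).congr rfl (by rw [map_add])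
  · intro c
    exact (has_self (S.sing_left hu w) c).congr rfl (by rw [map_smul])
  · intro w' hw' hww'
    have hw'0 : w' ≠ 0 := by
      rintro rfl
      exact hww' (polar_zero_right _ _)
    set d : F := - (polar QU y' y * polar QW w' w) with hd
    have hd0 : d ≠ 0 := neg_ne_zero.2 (mul_ne_zero hyy (by rwa [polar_comm]))
    have key : ∀ c : F, Has Q X (t u w) ((c * c) • (d • t u w')) := by
      intro c
      by_cases hc : c = 0
      · subst hc
        refine (has_zero (S.sing_left hu w)).congr rfl (by simp)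
      obtain ⟨l, hl, hlw⟩ := hX.tr hw (x' := c • w') (by rw [QuadraticMap.map_smul, hw', smul_zero])
        hw0 (smul_ne_zero hc hw'0)
      have h3 := h2.map (hX.le (hX.rW l hl)) (hX.rW l hl)
      rw [rW_apply, rW_apply, hlw] at h3
      have p1 : polar Q (t u (c • w')) (t u w) = 0 := by rw [S.pol, polar_self_of_sing hu, zero_mul]
      have p2 : polar Q (t y' (c • w')) (t u w) = 0 := by rw [S.pol, polar_comm, hy', zero_mul]
      have h4 := h3.comm h1 p1 p2
      refine h4.congr rfl ?_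
      have p3 : polar Q (t u (c • w')) (t y w) = 0 := by rw [S.pol, hy, zero_mul]
      rw [p3, S.pol, hd]
      simp only [map_smul, polar_smul_left, smul_eq_mul]
      module
    have h4 := has_smul_of_sq S.two key d⁻¹
    refine h4.congr rfl ?_
    rw [smul_smul, inv_mul_cancel₀ hd0, one_smul]

theorem AA_of_line {u : U} {w : W} (hu : QU u = 0) (hw : QW w = 0) (hw0 : w ≠ 0)
    (h : ∀ z, Has Q X (t u w) (t u z)) : AA Q t X u := by
  have h1 : ∀ w1, QW w1 = 0 → ∀ z, Has Q X (t u w1) (t u z) := by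
    intro w1 hw1 z
    by_cases h0 : w1 = 0
    · subst h0
      rw [map_zero]
      exact has_zero_left _
    obtain ⟨l, hl, hlw⟩ := hX.tr hw hw1 hw0 h0
    have h2 := (h (l.symm z)).map (hX.le (hX.rW l hl)) (hX.rW l hl)
    rwa [rW_apply, rW_apply, hlw, LinearEquiv.apply_symm_apply] at h2
  intro z1 z2
  obtain ⟨x0, y0, h0⟩ := hX.sW
  refine sing_induction h0 (P := fun z2 => Has Q X (t u z1) (t u z2)) ?_ ?_ z2
  · intro a c ha hc
    exact (ha.add hc).congr rfl (by rw [map_add])
  · intro a ha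
    have h2 := ((h1 a ha z1).swap (S.sing_left hu z1)).neg
    rwa [neg_neg] at h2

theorem AA_of_nonperp {u u' : U} (hu : QU u = 0) (hu' : QU u' = 0) (huu' : polar QU u u' ≠ 0)
    (h : AA Q t X u) : AA Q t X u' := by
  have hyp : Hyp QU u ((polar QU u u')⁻¹ • u') := by
    refine ⟨hu, by rw [QuadraticMap.map_smul, hu', smul_zero], ?_⟩
    rw [polar_smul_right, smul_eq_mul, inv_mul_cancel₀ huu']
  obtain ⟨z, hz, hz1, hz2⟩ := exists_third S.ndU hX.dU hyp
  rw [polar_smul_right, smul_eq_mul] at hz2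
  have hz3 : polar QU z u' ≠ 0 := right_ne_zero_of_mul hz2
  have hy1 : Hyp QU z ((polar QU z u)⁻¹ • u) :=
    ⟨hz, by rw [QuadraticMap.map_smul, hu, smul_zero], by rw [polar_smul_right, smul_eq_mul, inv_mul_cancel₀ hz1]⟩
  have hy2 : Hyp QU z ((polar QU z u')⁻¹ • u') :=
    ⟨hz, by rw [QuadraticMap.map_smul, hu', smul_zero], by rw [polar_smul_right, smul_eq_mul, inv_mul_cancel₀ hz3]⟩
  obtain ⟨g, hg, -, hgu⟩ := siegel_partner hy1 hy2
  have hgu' : g u = (polar QU z u * (polar QU z u')⁻¹) • u' := by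
    have : u = (polar QU z u) • ((polar QU z u)⁻¹ • u) := by rw [smul_smul, mul_inv_cancel₀ hz1, one_smul]
    conv_lhs => rw [this]
    rw [map_smul, hgu, smul_smul]
  set γ := polar QU z u * (polar QU z u')⁻¹ with hγ
  have hγ0 : γ ≠ 0 := mul_ne_zero hz1 (inv_ne_zero hz3)
  intro z1 z2
  have h1 := (h (γ⁻¹ • z1) (γ⁻¹ • z2)).map (hX.le (hX.rU g hg)) (hX.rU g hg)
  rw [rU_apply, rU_apply, hgu'] at h1
  refine h1.congr ?_ ?_
  · rw [map_smul, map_smul, LinearMap.smul_apply, smul_smul, inv_mul_cancel₀ hγ0, one_smul]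
  · rw [map_smul, map_smul, LinearMap.smul_apply, smul_smul, inv_mul_cancel₀ hγ0, one_smul]

theorem has_opp {u u' : U} (hu : QU u = 0) (hu' : QU u' = 0) (huu' : polar QU u u' ≠ 0)
    (h : AA Q t X u) (h' : AA Q t X u') {z1 z' : W} (hz : polar QW z1 z' = 0) :
    Has Q X (t u z1) (t u' z') := by
  have key : ∀ z', polar QW z1 z' = 0 → Has Q X (t u z1) (polar QU u' u • t u' z') := by
    intro z' hz
    by_cases hz' : z' = 0
    · subst hz'
      rw [map_zero, smul_zero]
      exact has_zero (S.sing_left hu z1)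
    obtain ⟨z1', h1, h2⟩ := exists_perp_not_mult (Q := QW) (by have := hX.dW; omega) z1 z'
    obtain ⟨z2, h3, h4⟩ := exists_sep S.ndW h2
    have h5 := (h' z1' z').comm (h z1 z2) (by rw [S.pol, polar_comm QW, h1, mul_zero])
      (by rw [S.pol, polar_comm QW, hz, mul_zero])
    refine h5.congr rfl ?_
    have e1 : polar Q (t u' z1') (t u z2) = polar QU u' u := by rw [S.pol, h4, mul_one]
    have e2 : polar Q (t u' z') (t u z2) = 0 := by rw [S.pol, h3, mul_zero]
    have e3 : Q (t u' z') = 0 := S.sing_left hu' z'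
    rw [e1, e2, e3]
    module
  have huu'' : polar QU u' u ≠ 0 := by rwa [polar_comm]
  have h1 := key ((polar QU u' u)⁻¹ • z') (by rw [polar_smul_right, hz, smul_zero])
  refine h1.congr rfl ?_
  rw [map_smul, smul_smul, mul_inv_cancel₀ huu'', one_smul]

theorem has_perpW {u u' : U} (hy : Hyp QU u u')
    (h : AA Q t X u) {z1 z' : W} (hz : polar QW z1 z' = 0) (y : U) :
    Has Q X (t u z1) (t y z') := by
  refine op_ind hy (P := fun y => Has Q X (t u z1) (t y z')) ?_ ?_ ?_ y
  · intro a c ha hc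
    exact (ha.add hc).congr rfl (by rw [map_add]; rfl)
  · intro c
    refine (h z1 (c • z')).congr rfl ?_
    rw [map_smul, map_smul]; rfl
  · intro a ha hua
    exact hX.has_opp hy.left ha hua h (hX.AA_of_nonperp hy.left ha hua h) hz

theorem has_perpU {u u' : U} (hyp : Hyp QU u u')
    (h : AA Q t X u) {y : U} (hy : polar QU u y = 0) (z1 z' : W) :
    Has Q X (t u z1) (t y z') := by
  obtain ⟨z2, h1, h2⟩ := exists_perp_not_mult (Q := QW) (by have := hX.dW; omega) z' z1
  obtain ⟨z3, h3, h4⟩ := exists_sep S.ndW h2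
  have h5 := (hX.has_perpW hyp h (z1 := z2) (z' := z') (by rw [polar_comm]; exact h1) y).comm
    (hX.has_perpW hyp h (z1 := z1) (z' := z3) h3 u')
    (by rw [S.pol, hyp.polar_left, zero_mul]) (by rw [S.pol, polar_comm, hy, zero_mul])
  have e1 : polar Q (t u z2) (t u' z3) = 1 := by rw [S.pol, hyp.pair, h4, one_mul]
  rw [e1] at h5
  have h6 := h z1 ((polar Q (t y z') (t u' z3) + Q (t y z') * 1) • z2)
  refine (h5.add h6).congr rfl ?_
  rw [map_smul]
  module

theorem full_of_AA {u u' : U} (hyp : Hyp QU u u')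
    (h : AA Q t X u) (z1 : W) (hz1 : z1 ≠ 0) : Full Q X (t u z1) := by
  obtain ⟨z1', hz1'⟩ := S.ndW.exists_polar_eq hz1 1
  have key : ∀ v : V, ∃ c : F, Has Q X (t u z1) (v - c • t u' z1') := by
    intro v
    induction v using S.ten.inductionOn with
    | zero => exact ⟨0, (has_zero (S.sing_left hyp.left z1)).congr rfl (by simp)⟩
    | tmul y z =>
      set β := polar QU u y with hβ
      set γ := polar QW z1 z with hγ
      have h1 := hX.has_perpU hyp h (y := y - β • u') (by
        rw [polar_sub_right, polar_smul_right, hyp.pair, hβ]; simp) z1 z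
      have h2 := hX.has_perpW hyp h (z1 := z1) (z' := β • (z - γ • z1')) (by
        rw [polar_smul_right, polar_sub_right, polar_smul_right, hz1', hγ]; simp) u'
      refine ⟨β * γ, (h1.add h2).congr rfl ?_⟩
      simp only [map_sub, map_smul, LinearMap.sub_apply, LinearMap.smul_apply]
      module
    | add x y hx hy =>
      obtain ⟨c, hc⟩ := hx
      obtain ⟨d, hd⟩ := hy
      exact ⟨c + d, (hc.add hd).congr rfl (by module)⟩
  refine ⟨S.sing_left hyp.left z1, fun v hv => ?_⟩
  obtain ⟨c, hc⟩ := key v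
  have h1 := hc.perp
  rw [polar_sub_right, hv, polar_smul_right, S.pol, hyp.pair, hz1'] at h1
  have hc0 : c = 0 := by simpa using h1
  subst hc0
  exact hc.congr rfl (by simp)

theorem E_le_of_AA {u : U} (hu : QU u = 0) (hu0 : u ≠ 0) (h : AA Q t X u) : E Q ≤ X := by
  obtain ⟨u', hyp⟩ := LieClassical.OrthTrans.exists_hyp S.ndU hu hu0
  obtain ⟨x, x2, hxx⟩ := hX.sW
  have hx0 := hxx.left_ne
  obtain ⟨x', hx'⟩ := S.ndW.exists_polar_eq hx0 1
  have hx'0 : x' ≠ 0 := by
    rintro rfl
    rw [polar_zero_right] at hx'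
    exact zero_ne_one hx'
  have h1 := hX.full_of_AA hyp h x hx0
  have h2 := hX.full_of_AA hyp.symm
    (hX.AA_of_nonperp hyp.left hyp.right (by rw [hyp.pair]; exact one_ne_zero) h) x' hx'0
  exact E_le_of_full_pair hX.hG h1 h2 (by rw [S.pol, hyp.pair, hx']; simp)

/-- **Case 1, final form.** -/
theorem E_le_of_has {u y y' : U} {w : W} (hu : QU u = 0) (hu0 : u ≠ 0) (hw : QW w = 0)
    (hw0 : w ≠ 0) (hy : polar QU u y = 0) (hy' : polar QU u y' = 0) (hyy : polar QU y' y ≠ 0)
    (h1 : Has Q X (t u w) (t y w)) (h2 : Has Q X (t u w) (t y' w)) : E Q ≤ X :=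
  hX.E_le_of_AA hu hu0 (hX.AA_of_line hu hw hw0 (hX.has_line hu hw hw0 hy hy' hyy h1 h2))

theorem has_y {w : W} (hw : QW w = 0) (hw0 : w ≠ 0) {κ : U →ₗ[F] U} (h : InZ t QW X w κ)
    {u x : U} (hu : QU u = 0) (hx : polar QU u x = 0) :
    Has Q X (t u w) (t ((2 * QU x) • κ u - (2 * polar QU (κ u) x) • x) w) := by
  have hsk := S.inZ_skew hX.le hw hw0 h
  have hk : Cfsg.Agent.H882.Ten.rU S.ten (siegel QU u x hu hx) ∈ X := hX.rU _ (siegel_mem_E hu hx)
  have h1 := S.inZ_sub hw (S.inZ_cj h hk) h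
  have h2 := S.inZ_sub hw (S.inZ_cj h1 hk) h1
  have h3 := kappa2 hsk S.two hu hx
  have hxu : polar QU u (κ u) = 0 := by
    have h4 := hsk u u
    rw [polar_comm] at h4
    have h5 : 2 * polar QU u (κ u) = 0 := by linear_combination h4
    exact (mul_eq_zero.1 h5).resolve_left S.two
  have hp : polar QU u ((2 * QU x) • κ u - (2 * polar QU (κ u) x) • x) = 0 := by
    rw [polar_sub_right, polar_smul_right, polar_smul_right, hxu, hx]; simp
  have h4 := S.has_of_inZ hw h2 (u := u) (y := -((2 * QU x) • κ u - (2 * polar QU (κ u) x) • x)) hu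
    (by rw [polar_neg_right, hp, neg_zero]) (by
      intro v
      rw [h3, polar_neg_left]
      module)
  refine h4.neg.congr rfl ?_
  rw [map_neg, LinearMap.neg_apply, neg_neg]

/-- **Case 1.** -/
theorem E_le_of_inZ (hPU : PU QU) {w : W} (hw : QW w = 0) (hw0 : w ≠ 0) {κ : U →ₗ[F] U}
    (h : InZ t QW X w κ) (hκ : κ ≠ 0) : E Q ≤ X := by
  have hsk := S.inZ_skew hX.le hw hw0 h
  obtain ⟨x0, y0, hxy0⟩ := hX.sU
  have hself : ∀ u, polar QU u (κ u) = 0 := by
    intro u
    have h4 := hsk u u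
    rw [polar_comm] at h4
    have h5 : 2 * polar QU u (κ u) = 0 := by linear_combination h4
    exact (mul_eq_zero.1 h5).resolve_left S.two
  obtain ⟨u, hu, hku⟩ : ∃ u, QU u = 0 ∧ ∀ c : F, κ u ≠ c • u := by
    by_contra hcon
    push Not at hcon
    obtain ⟨c, hc⟩ := scalar_of_sing S.two S.ndU hX.dU hxy0 κ hcon
    apply hκ
    have h1 := hsk x0 y0
    rw [hc, hc, polar_smul_left, polar_smul_right, hxy0.pair] at h1
    have h5 : 2 * c = 0 := by
      have : c * 1 = -(c * 1) := h1
      linear_combination this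
    have hc0 := (mul_eq_zero.1 h5).resolve_left S.two
    ext v
    rw [hc, hc0, zero_smul]; rfl
  have hu0 : u ≠ 0 := by
    rintro rfl
    exact hku 0 (by simp)
  obtain ⟨u', hyp⟩ := LieClassical.OrthTrans.exists_hyp S.ndU hu hu0
  obtain ⟨x1, hx1, -, hx1n⟩ := exists_nonsing_perp S.ndU hX.dU hyp
  by_cases hq : QU (κ u) = 0
  · obtain ⟨x', hx', hx'2, hx'n⟩ := hPU u (κ u) hu hq (hself u) hu0 hku
    obtain ⟨x, hx, hx2⟩ := exists_sep S.ndU hku
    have h1 := hX.has_y hw hw0 h hu hx
    have h2 := hX.has_y hw hw0 h hu hx'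
    refine hX.E_le_of_has hu hu0 hw hw0 ?_ ?_ ?_ h1 h2
    · rw [polar_sub_right, polar_smul_right, polar_smul_right, hself, hx]; simp
    · rw [polar_sub_right, polar_smul_right, polar_smul_right, hself, hx']; simp
    · rw [hx'2, hx2]
      simp only [mul_zero, zero_smul, sub_zero, polar_sub_right, polar_smul_left, polar_smul_right, mul_one,
        polar_self_of_sing hq, hx2, smul_eq_mul]
      intro h0
      have : 2 * (2 * QU x') = 0 := by linear_combination -h0
      exact mul_ne_zero S.two (mul_ne_zero S.two hx'n) this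
  · have h1 := hX.has_y hw hw0 h hu hx1
    have hp : polar QU u ((2 * QU x1) • κ u - (2 * polar QU (κ u) x1) • x1) = 0 := by
      rw [polar_sub_right, polar_smul_right, polar_smul_right, hself, hx1]; simp
    refine hX.E_le_of_has hu hu0 hw hw0 hp hp ?_ h1 h1
    have e : polar QU ((2 * QU x1) • κ u - (2 * polar QU (κ u) x1) • x1)
        ((2 * QU x1) • κ u - (2 * polar QU (κ u) x1) • x1) = (2 * QU x1) * (2 * QU x1) * (2 * QU (κ u)) := by
      have e1 := polar_self' (Q := QU) (κ u)
      have e2 := polar_self' (Q := QU) x1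
      simp only [polar_sub_left, polar_sub_right, polar_smul_left, polar_smul_right, smul_eq_mul, e1, e2,
        polar_comm QU x1 (κ u)]
      ring
    rw [e]
    exact mul_ne_zero (mul_ne_zero (mul_ne_zero S.two hx1n) (mul_ne_zero S.two hx1n)) (mul_ne_zero S.two hq)

/-- **All parameters are self-adjoint** if the centre meets `X` trivially. -/
theorem tau_symm {w : W} (hw : QW w = 0) (hw0 : w ≠ 0)
    (hZ : ∀ κ, InZ t QW X w κ → κ = 0) {τ : W →ₗ[F] U →ₗ[F] U} (h : InR t QW X w τ) {x : W}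
    (hx : polar QW w x = 0) (u u' : U) : polar QU (τ x u) u' = polar QU u (τ x u') := by
  obtain ⟨g, hg, hgτ⟩ := h
  obtain ⟨w', hyp⟩ := LieClassical.OrthTrans.exists_hyp S.ndW hw hw0
  obtain ⟨κ, hκ, hκ'⟩ := S.rad_comm hX.le hyp hg (hX.rW _ (siegel_mem_E hw hx)) hgτ (S.isR_siegel hw hx)
  have h0 := hZ κ hκ
  have h1 := hκ' u
  rw [h0, LinearMap.zero_apply, rW_apply] at h1
  have h2 : t u (siegel QW w x hw hx w') - t u w' = t u (x - (polar QW x w' + QW x) • w) := by
    rw [← map_sub]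
    congr 1
    rw [siegel_apply, hyp.pair]
    module
  rw [h2, S.hat_t] at h1
  have h3 : ∀ v, S.hat (-(polarBilin QW x).smulRight (LinearMap.id : U →ₗ[F] U)) v = - S.cw x v := by
    have : S.hat (-(polarBilin QW x).smulRight (LinearMap.id : U →ₗ[F] U)) = - S.cw x := by
      refine ext_t S.ten fun u z => ?_
      rw [S.hat_t, LinearMap.neg_apply, LinearMap.neg_apply, LinearMap.neg_apply, S.cw_t]
      rfl
    intro v
    rw [this]; rfl
  rw [h3] at h1
  have h4 : τ (x - (polar QW x w' + QW x) • w) u = τ x u := by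
    rw [map_sub, map_smul, LinearMap.sub_apply, LinearMap.smul_apply, S.tau_self hw hw0 hgτ]
    simp
  rw [h4] at h1
  have h5 := S.cw_s hX.le hyp hg hgτ hx u u'
  have h6 : τ x u = - S.cw x (g (t u w') - t u w') := by
    rw [eq_neg_iff_add_eq_zero]
    rw [sub_neg_eq_add] at h1
    exact h1.symm
  rw [h6, polar_neg_left, h5, neg_neg]

/-- **Commuting parameters.** -/
theorem tau_commute {w : W} (hw : QW w = 0) (hw0 : w ≠ 0)
    (hZ : ∀ κ, InZ t QW X w κ → κ = 0) {α β : U →ₗ[F] U} {y0 y1 : W} (hy0 : polar QW w y0 = 0)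
    (hy1 : polar QW w y1 = 0) (hy : polar QW y0 y1 ≠ 0)
    (h : InR t QW X w ((polarBilin QW y0).smulRight α)) (h' : InR t QW X w ((polarBilin QW y1).smulRight β))
    (hα : ∀ u u', polar QU (α u) u' = polar QU u (α u')) (hβ : ∀ u u', polar QU (β u) u' = polar QU u (β u'))
    (u : U) : α (β u) = β (α u) := by
  obtain ⟨g, hg, hgτ⟩ := h
  obtain ⟨g', hg', hgτ'⟩ := h'
  obtain ⟨w', hyp⟩ := LieClassical.OrthTrans.exists_hyp S.ndW hw hw0
  obtain ⟨κ, hκ, hκ'⟩ := S.rad_comm hX.le hyp hg hg' hgτ hgτ'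
  have h0 := hZ κ hκ
  have h1 := hκ' u
  have h3 : ∀ (γ : U →ₗ[F] U) (x : W) v, S.hat ((polarBilin QW x).smulRight γ) v = γ (S.cw x v) := by
    intro γ x
    have : S.hat ((polarBilin QW x).smulRight γ) = γ ∘ₗ S.cw x := by
      refine ext_t S.ten fun u z => ?_
      rw [S.hat_t, LinearMap.comp_apply, S.cw_t, map_smul]
      rfl
    intro v
    rw [this]; rfl
  rw [h0, LinearMap.zero_apply, h3, h3] at h1
  have h4 : S.cw y0 (g' (t u w') - t u w') = - (polar QW y0 y1 • β u) := by
    refine S.eq_of_polar fun y => ?_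
    rw [S.cw_s hX.le hyp hg' hgτ' hy0 u y, LinearMap.smulRight_apply, LinearMap.smul_apply, polar_smul_right,
      polar_neg_left, polar_smul_left, hβ, polarBilin_apply_apply, polar_comm QW y1 y0]
  have h5 : S.cw y1 (g (t u w') - t u w') = - (polar QW y0 y1 • α u) := by
    refine S.eq_of_polar fun y => ?_
    rw [S.cw_s hX.le hyp hg hgτ hy1 u y, LinearMap.smulRight_apply, LinearMap.smul_apply, polar_smul_right,
      polar_neg_left, polar_smul_left, hα, polarBilin_apply_apply]
  rw [h4, h5, map_neg, map_neg, map_smul, map_smul] at h1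
  have h6 : polar QW y0 y1 • (α (β u) - β (α u)) = 0 := by
    rw [smul_sub]
    have : polar QW y0 y1 • α (β u) - polar QW y0 y1 • β (α u) =
      -(-(polar QW y0 y1 • α (β u)) - -(polar QW y0 y1 • β (α u))) := by abel
    rw [this, ← h1, neg_zero]
  exact sub_eq_zero.1 ((smul_eq_zero.1 h6).resolve_left hy)

end Ov

end Cfsg.Agent.H932.Three
end

-- part: H932/ThreeOrth
section
/-!
Orthogonal bases of three-dimensional quadratic spaces and the involutions `k_a = - r_a`.
-/

set_option autoImplicit false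
set_option linter.unusedSimpArgs false
set_option linter.unusedSectionVars false

namespace Cfsg.Agent.H932.Three

open QuadraticMap hiding proj
open Cfsg.Agent.LieClassical.OrthCore Cfsg.Agent.LieClassical.OrthTrans
open Cfsg.Agent Cfsg.Agent.H882.Ten

variable {F : Type*} {U : Type*} [Field F] [AddCommGroup U] [Module F U] {R : QuadraticForm F U}

/-- The involution `x ↦ Q(a)⁻¹ b(a,x) a - x`. -/
noncomputable def kk (R : QuadraticForm F U) (a : U) (ha : R a ≠ 0) : U ≃ₗ[F] U :=
  (refl R a ha).trans (LinearEquiv.neg F)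

theorem kk_apply {a : U} (ha : R a ≠ 0) (x : U) :
    kk R a ha x = ((R a)⁻¹ * polar R a x) • a - x := by
  show -(refl R a ha x) = _
  rw [refl_apply, neg_sub]

theorem kk_mem_O {a : U} (ha : R a ≠ 0) : kk R a ha ∈ O R := by
  intro x
  show R (-(refl R a ha x)) = R x
  rw [QuadraticMap.map_neg]
  exact refl_mem_O ha x

theorem kk_kk {a : U} (ha : R a ≠ 0) (x : U) : kk R a ha (kk R a ha x) = x := by
  show -(refl R a ha (-(refl R a ha x))) = x
  rw [map_neg, neg_neg]
  have := refl_mul_self (Q := R) ha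
  have h2 := LinearEquiv.congr_fun this x
  exact h2

theorem kk_mul_self {a : U} (ha : R a ≠ 0) : kk R a ha * kk R a ha = 1 := by
  ext x
  exact kk_kk ha x

theorem kk_inv {a : U} (ha : R a ≠ 0) : (kk R a ha)⁻¹ = kk R a ha :=
  inv_eq_of_mul_eq_one_left (kk_mul_self ha)

theorem kk_self {a : U} (ha : R a ≠ 0) : kk R a ha a = a := by
  rw [kk_apply, polar_self']
  have : (R a)⁻¹ * (2 * R a) = 2 := by
    rw [mul_comm, mul_assoc, mul_inv_cancel₀ ha, mul_one]
  rw [this, two_smul, add_sub_cancel_right]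

theorem kk_perp {a x : U} (ha : R a ≠ 0) (hx : polar R a x = 0) : kk R a ha x = -x := by
  rw [kk_apply, hx, mul_zero, zero_smul, zero_sub]

/-- `k_a` moves to the other side of the form. -/
theorem kk_adj {a : U} (ha : R a ≠ 0) (x y : U) : polar R (kk R a ha x) y = polar R x (kk R a ha y) := by
  rw [← polar_map (kk_mem_O ha) x, kk_kk]

/-- `k_(c+v)` maps `c` to `v` if the norms agree. -/
theorem kk_swap {c v : U} (h : R c = R v) (hn : R (c + v) ≠ 0) : kk R (c + v) hn c = v := by
  have h1 : polar R (c + v) c = R (c + v) := by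
    rw [polar_add_left, polar_self', Q_add, polar_comm R v c, ← h]
    ring
  rw [kk_apply, h1, inv_mul_cancel₀ hn, one_smul, add_sub_cancel_left]

/-- An orthogonal triple of nonsingular vectors. -/
structure OB (R : QuadraticForm F U) (a b c : U) : Prop where
  na : R a ≠ 0
  nb : R b ≠ 0
  nc : R c ≠ 0
  ab : polar R a b = 0
  ac : polar R a c = 0
  bc : polar R b c = 0

namespace OB

variable {a b c : U}

theorem ba (h : OB R a b c) : polar R b a = 0 := by rw [polar_comm]; exact h.ab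
theorem ca (h : OB R a b c) : polar R c a = 0 := by rw [polar_comm]; exact h.ac
theorem cb (h : OB R a b c) : polar R c b = 0 := by rw [polar_comm]; exact h.bc

theorem swap12 (h : OB R a b c) : OB R b a c := ⟨h.nb, h.na, h.nc, h.ba, h.bc, h.ac⟩
theorem swap23 (h : OB R a b c) : OB R a c b := ⟨h.na, h.nc, h.nb, h.ac, h.ab, h.cb⟩
theorem rot (h : OB R a b c) : OB R b c a := ⟨h.nb, h.nc, h.na, h.bc, h.ba, h.ca⟩

theorem eq_zero (h : OB R a b c) (h2 : (2 : F) ≠ 0) (d3 : Module.finrank F U = 3) {u : U}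
    (ha : polar R a u = 0) (hb : polar R b u = 0) (hc : polar R c u = 0) : u = 0 := by
  have hna : 2 * R a ≠ 0 := mul_ne_zero h2 h.na
  have hnb : 2 * R b ≠ 0 := mul_ne_zero h2 h.nb
  have hnc : 2 * R c ≠ 0 := mul_ne_zero h2 h.nc
  have hli : LinearIndependent F ![a, b, c] := by
    rw [Fintype.linearIndependent_iff]
    intro d hd
    rw [Fin.sum_univ_three] at hd
    have hd' : d 0 • a + d 1 • b + d 2 • c = 0 := hd
    have e1 := congrArg (polar R a) hd'
    have e2 := congrArg (polar R b) hd'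
    have e3 := congrArg (polar R c) hd'
    simp only [polar_add_right, polar_smul_right, polar_self', h.ab, h.ac, h.bc, h.ba, h.ca, h.cb,
      polar_zero_right, smul_eq_mul, mul_zero, zero_add, add_zero] at e1 e2 e3
    intro i
    fin_cases i
    · exact (mul_eq_zero.1 e1).resolve_right hna
    · exact (mul_eq_zero.1 e2).resolve_right hnb
    · exact (mul_eq_zero.1 e3).resolve_right hnc
  have hsp := hli.span_eq_top_of_card_eq_finrank (by simp [d3])
  have hp : u ∈ Submodule.span F (Set.range ![a, b, c]) := by rw [hsp]; trivial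
  rw [Submodule.mem_span_range_iff_exists_fun] at hp
  obtain ⟨d, hd⟩ := hp
  rw [Fin.sum_univ_three] at hd
  have hd' : d 0 • a + d 1 • b + d 2 • c = u := hd
  rw [← hd'] at ha hb hc ⊢
  simp only [polar_add_right, polar_smul_right, polar_self', h.ab, h.ac, h.bc, h.ba, h.ca, h.cb,
    smul_eq_mul, mul_zero, zero_add, add_zero] at ha hb hc
  rw [(mul_eq_zero.1 ha).resolve_right hna, (mul_eq_zero.1 hb).resolve_right hnb,
    (mul_eq_zero.1 hc).resolve_right hnc]
  simp

theorem expand (h : OB R a b c) (h2 : (2 : F) ≠ 0) (d3 : Module.finrank F U = 3) (u : U) :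
    u = ((2 * R a)⁻¹ * polar R a u) • a + ((2 * R b)⁻¹ * polar R b u) • b +
      ((2 * R c)⁻¹ * polar R c u) • c := by
  have hna : 2 * R a ≠ 0 := mul_ne_zero h2 h.na
  have hnb : 2 * R b ≠ 0 := mul_ne_zero h2 h.nb
  have hnc : 2 * R c ≠ 0 := mul_ne_zero h2 h.nc
  rw [← sub_eq_zero]
  apply h.eq_zero h2 d3
  · simp only [polar_sub_right, polar_add_right, polar_smul_right, polar_self', h.ab, h.ac, h.bc, h.ba, h.ca,
      h.cb, smul_eq_mul, mul_zero, add_zero, zero_add]
    rw [mul_right_comm, inv_mul_cancel₀ hna, one_mul, sub_self]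
  · simp only [polar_sub_right, polar_add_right, polar_smul_right, polar_self', h.ab, h.ac, h.bc, h.ba, h.ca,
      h.cb, smul_eq_mul, mul_zero, add_zero, zero_add]
    rw [mul_right_comm, inv_mul_cancel₀ hnb, one_mul, sub_self]
  · simp only [polar_sub_right, polar_add_right, polar_smul_right, polar_self', h.ab, h.ac, h.bc, h.ba, h.ca,
      h.cb, smul_eq_mul, mul_zero, add_zero, zero_add]
    rw [mul_right_comm, inv_mul_cancel₀ hnc, one_mul, sub_self]

/-- two vectors with the same products with the triple are equal -/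
theorem ext (h : OB R a b c) (h2 : (2 : F) ≠ 0) (d3 : Module.finrank F U = 3) {u v : U}
    (ha : polar R u a = polar R v a) (hb : polar R u b = polar R v b) (hc : polar R u c = polar R v c) :
    u = v := by
  rw [← sub_eq_zero]
  apply h.eq_zero h2 d3
  · rw [polar_comm, polar_sub_left, ha, sub_self]
  · rw [polar_comm, polar_sub_left, hb, sub_self]
  · rw [polar_comm, polar_sub_left, hc, sub_self]

/-- two linear maps which agree on the triple are equal -/
theorem lext (h : OB R a b c) (h2 : (2 : F) ≠ 0) (d3 : Module.finrank F U = 3) {Y : Type*} [AddCommGroup Y]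
    [Module F Y] {f g : U →ₗ[F] Y} (ha : f a = g a) (hb : f b = g b) (hc : f c = g c) (u : U) : f u = g u := by
  rw [h.expand h2 d3 u]
  simp only [map_add, map_smul, ha, hb, hc]

end OB

theorem exists_nonsing_of_perp {n : ℕ} (hQ : Nondeg R) (h2 : (2 : F) ≠ 0) (e : Fin n → U)
    (he : ∀ i, R (e i) ≠ 0) (heo : ∀ i j, i ≠ j → polar R (e i) (e j) = 0) (hn : n < Module.finrank F U) :
    ∃ c, R c ≠ 0 ∧ ∀ i, polar R (e i) c = 0 := by
  obtain ⟨c, hc0, hc⟩ := exists_perp_ne (Q := R) e hn
  by_cases hcn : R c = 0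
  · obtain ⟨y, hy⟩ := hQ.exists_polar_ne hc0
    set y' := y - ∑ i, ((2 * R (e i))⁻¹ * polar R (e i) y) • e i with hy'
    have hsum : ∀ z, polar R z (∑ i, ((2 * R (e i))⁻¹ * polar R (e i) y) • e i) =
        ∑ i, ((2 * R (e i))⁻¹ * polar R (e i) y) * polar R z (e i) := by
      intro z
      have : ∀ s : Finset (Fin n), polar R z (∑ i ∈ s, ((2 * R (e i))⁻¹ * polar R (e i) y) • e i) =
        ∑ i ∈ s, ((2 * R (e i))⁻¹ * polar R (e i) y) * polar R z (e i) := by
        intro s
        classical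
        induction s using Finset.induction_on with
        | empty => simp
        | insert a s ha ih => rw [Finset.sum_insert ha, Finset.sum_insert ha, polar_add_right, ih,
            polar_smul_right, smul_eq_mul]
      exact this Finset.univ
    have h1 : ∀ j, polar R (e j) y' = 0 := by
      intro j
      rw [hy', polar_sub_right, hsum, Finset.sum_eq_single j]
      · rw [polar_self', mul_right_comm, inv_mul_cancel₀ (mul_ne_zero h2 (he j)), one_mul, sub_self]
      · intro i _ hij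
        rw [heo j i (Ne.symm hij), mul_zero]
      · intro h
        exact absurd (Finset.mem_univ j) h
    have h3 : polar R c y' ≠ 0 := by
      rw [hy', polar_sub_right, hsum, Finset.sum_eq_zero, sub_zero]
      · exact hy
      · intro i _
        rw [polar_comm R c, hc i, mul_zero]
    by_cases hyn : R y' = 0
    · refine ⟨c + y', ?_, fun i => by rw [polar_add_right, hc, h1, add_zero]⟩
      rw [Q_add, hcn, hyn, zero_add, zero_add]
      exact h3
    · exact ⟨y', hyn, h1⟩
  · exact ⟨c, hcn, hc⟩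

/-- A nonsingular vector is a member of an orthogonal triple. -/
theorem exists_OB (hQ : Nondeg R) (h2 : (2 : F) ≠ 0) (d3 : 3 ≤ Module.finrank F U) {a : U} (ha : R a ≠ 0) :
    ∃ b c, OB R a b c := by
  obtain ⟨b, hb, hab⟩ := exists_nonsing_of_perp hQ h2 ![a] (by intro i; fin_cases i; exact ha)
    (by intro i j hij; exact absurd (Subsingleton.elim i j) hij) (by omega)
  have hab' : polar R a b = 0 := hab 0
  obtain ⟨c, hc, hac⟩ := exists_nonsing_of_perp hQ h2 ![a, b] (by
      intro i; fin_cases i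
      · exact ha
      · exact hb)
    (by
      intro i j hij
      fin_cases i <;> fin_cases j
      · exact absurd rfl hij
      · exact hab'
      · show polar R b a = 0
        rw [polar_comm]; exact hab'
      · exact absurd rfl hij) (by omega)
  exact ⟨b, c, ha, hb, hc, hab', hac 0, hac 1⟩

/-- A binary diagonal form over a finite field of odd order represents every scalar. -/
theorem exists_sq_add_sq [Finite F] (h2 : (2 : F) ≠ 0) {a b : F} (ha : a ≠ 0) (hb : b ≠ 0) (c : F) :
    ∃ x y : F, a * x ^ 2 + b * y ^ 2 = c := by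
  have := Fintype.ofFinite F
  have hodd : Fintype.card F % 2 = 1 := by
    apply FiniteField.odd_card_of_char_ne_two
    intro h
    have : CharP F 2 := (ringChar.eq_iff).1 h
    exact h2 (CharP.cast_eq_zero F 2)
  obtain ⟨x, y, hxy⟩ := FiniteField.exists_root_sum_quadratic (R := F)
    (f := Polynomial.C a * Polynomial.X ^ 2 - Polynomial.C c) (g := Polynomial.C b * Polynomial.X ^ 2)
    (by
      have : (Polynomial.C a * Polynomial.X ^ 2 - Polynomial.C c : Polynomial F) =
        Polynomial.C a * Polynomial.X ^ 2 + Polynomial.C (-c) := by rw [Polynomial.C_neg, sub_eq_add_neg]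
      rw [this, Polynomial.degree_add_eq_left_of_degree_lt]
      · exact Polynomial.degree_C_mul_X_pow 2 ha
      · rw [Polynomial.degree_C_mul_X_pow 2 ha]
        exact lt_of_le_of_lt Polynomial.degree_C_le (by norm_num))
    (Polynomial.degree_C_mul_X_pow 2 hb) hodd
  refine ⟨x, y, ?_⟩
  simp only [Polynomial.eval_sub, Polynomial.eval_mul, Polynomial.eval_C, Polynomial.eval_pow,
    Polynomial.eval_X] at hxy
  linear_combination hxy

end Cfsg.Agent.H932.Three
end

-- part: H932/ThreeRad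
section
/-!
`O₃ ⊗ O₄⁻` in `Ω₁₂⁻(q)`, `q ≥ 5` odd: the radical of the stabiliser of `U ⊗ w` in a proper overgroup `X` of
the stabiliser of the tensor decomposition consists of the `1 ⊗ siegel w x`.
-/

set_option autoImplicit false
set_option linter.unusedSimpArgs false
set_option linter.unusedSectionVars false

namespace Cfsg.Agent.H932.Three

open QuadraticMap hiding proj
open Cfsg.Agent.LieClassical.OrthCore Cfsg.Agent.LieClassical.OrthTrans Cfsg.Agent.H883.Root
open Cfsg.Agent Cfsg.Agent.H882.Ten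

variable {F : Type*} {U : Type*} {W : Type*} {V : Type*} [Field F] [AddCommGroup U] [Module F U]
  [AddCommGroup W] [Module F W] [AddCommGroup V] [Module F V]
  {t : U →ₗ[F] W →ₗ[F] V} {QU : QuadraticForm F U} {QW : QuadraticForm F W} {Q : QuadraticForm F V}
  {X : Subgroup (V ≃ₗ[F] V)} {S : TSt t QU QW Q}

/-- The hypotheses on an overgroup `X` of `O₃ ⊗ O₄⁻`. -/
structure Ov3 (S : TSt t QU QW Q) (X : Subgroup (V ≃ₗ[F] V)) : Prop extends Ov S X where
  d3 : Module.finrank F U = 3
  d4 : Module.finrank F W = 4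
  an : ∀ s w, QW s = 0 → s ≠ 0 → polar QW s w = 0 → QW w = 0 → ∃ c : F, w = c • s
  kU : ∀ a (ha : QU a ≠ 0), Cfsg.Agent.H882.Ten.rU S.ten (kk QU a ha) ∈ X
  five : ∃ c : F, c ≠ 0 ∧ c * c ≠ 1
  fin : Finite F
  leE : X ≤ E Q
  ge : ∀ g ∈ TT t S.ten, g ∈ E Q → g ∈ X

theorem inR_congr {w : W} {τ τ' : W →ₗ[F] U →ₗ[F] U} (h : InR t QW X w τ)
    (he : ∀ z, polar QW w z = 0 → ∀ u, τ z u = τ' z u) : InR t QW X w τ' := by
  obtain ⟨g, hg, h1, h2⟩ := h
  refine ⟨g, hg, h1, fun u z hz => ?_⟩
  rw [h2 u z hz, he z hz u]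

/-- Singular orthogonal vectors of a three-dimensional space are proportional. -/
theorem iso_three (d3 : Module.finrank F U = 3) (hQ : Nondeg QU) {u v : U} (hu : QU u = 0) (hv : QU v = 0)
    (huv : polar QU u v = 0) (hu0 : u ≠ 0) : ∃ c : F, v = c • u := by
  by_contra hne
  push Not at hne
  have : Module.Finite F U := Module.finite_of_finrank_pos (by omega)
  -- `span {u, v}` is totally isotropic of dimension 2
  have hli : LinearIndependent F ![u, v] := by
    rw [LinearIndependent.pair_iff]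
    intro a b hab
    have hb : b = 0 := by
      by_contra hb
      apply hne (-(b⁻¹ * a))
      have h1 : b • v = -(a • u) := by rw [eq_neg_iff_add_eq_zero, add_comm]; exact hab
      calc v = b⁻¹ • (b • v) := by rw [smul_smul, inv_mul_cancel₀ hb, one_smul]
        _ = _ := by rw [h1, smul_neg, smul_smul, neg_smul]
    subst hb
    rw [zero_smul, add_zero] at hab
    exact ⟨(smul_eq_zero.1 hab).resolve_right hu0, rfl⟩
  set P := Submodule.span F (Set.range ![u, v]) with hP
  have hP2 : Module.finrank F P = 2 := by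
    rw [hP, finrank_span_eq_card hli, Fintype.card_fin]
  have huu : polar QU u u = 0 := polar_self_of_sing hu
  have hvv : polar QU v v = 0 := polar_self_of_sing hv
  have hvu : polar QU v u = 0 := by rw [polar_comm]; exact huv
  have hle : P ≤ Cfsg.Agent.H883.Sub.perp QU P := by
    rw [hP, Submodule.span_le]
    rintro _ ⟨i, rfl⟩
    rw [SetLike.mem_coe, Cfsg.Agent.H883.Sub.mem_perp]
    intro w hw
    rw [Submodule.mem_span_range_iff_exists_fun] at hw
    obtain ⟨d, hd⟩ := hw
    rw [Fin.sum_univ_two] at hd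
    have hd' : d 0 • u + d 1 • v = w := hd
    rw [← hd', polar_add_left, polar_smul_left, polar_smul_left]
    fin_cases i
    · show d 0 • polar QU u u + d 1 • polar QU v u = 0
      rw [huu, hvu]; simp
    · show d 0 • polar QU u v + d 1 • polar QU v v = 0
      rw [huv, hvv]; simp
  have h1 := Cfsg.Agent.H883.Sub.finrank_perp hQ P
  have h2 := Submodule.finrank_mono hle
  omega

theorem pu_of_three (d3 : Module.finrank F U = 3) (hQ : Nondeg QU) : PU QU := by
  intro u v hu hv huv hu0 hne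
  obtain ⟨c, hc⟩ := iso_three d3 hQ hu hv huv hu0
  exact absurd hc (hne c)

namespace Ov3

variable (hX : Ov3 S X)

include hX

/-- The parameters have no off-diagonal entries with respect to orthogonal bases. -/
theorem offdiag {w : W} (hw : QW w = 0) (hw0 : w ≠ 0)
    (hZ : ∀ κ, InZ t QW X w κ → κ = 0) {τ : W →ₗ[F] U →ₗ[F] U} (h : InR t QW X w τ) {a b c : U}
    (ho : OB QU a b c) {z : W} (hz : polar QW w z = 0) : polar QU (τ z a) b = 0 := by
  have h2 := S.two
  have hfW : FiniteDimensional F W := Module.finite_of_finrank_pos (by rw [hX.d4]; norm_num)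
  -- the operators
  have hsymm : ∀ {τ : W →ₗ[F] U →ₗ[F] U}, InR t QW X w τ → ∀ z, polar QW w z = 0 → ∀ u u',
      polar QU (τ z u) u' = polar QU u (τ z u') := fun h z hz u u' => hX.tau_symm hw hw0 hZ h hz u u'
  let cjt : (U ≃ₗ[F] U) → (W →ₗ[F] U →ₗ[F] U) → (W →ₗ[F] U →ₗ[F] U) := fun k τ =>
    { toFun := fun z => cj k (τ z)
      map_add' := fun x y => by ext u; simp [cj_apply]
      map_smul' := fun x y => by ext u; simp [cj_apply] }
  have hcjt : ∀ k τ z u, cjt k τ z u = k (τ z (k⁻¹ u)) := fun k τ z u => rfl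
  have hIn : ∀ {τ : W →ₗ[F] U →ₗ[F] U} (e : U) (he : QU e ≠ 0), InR t QW X w τ →
      InR t QW X w (cjt (kk QU e he) τ) := fun e he h => S.inR_cj h (hX.kU e he) (fun z => rfl)
  have hk : ∀ {τ : W →ₗ[F] U →ₗ[F] U} (e : U) (he : QU e ≠ 0) (z : W) (u u' : U),
      polar QU (cjt (kk QU e he) τ z u) u' = polar QU (τ z (kk QU e he u)) (kk QU e he u') := by
    intro τ e he z u u'
    rw [hcjt, kk_inv, kk_adj]
  set τ1 := τ - cjt (kk QU a ho.na) τ with hτ1
  have i1 : InR t QW X w τ1 := S.inR_sub h (hIn a ho.na h)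
  have i0 : InR t QW X w (τ1 - τ1) := S.inR_sub i1 i1
  set τ2 := τ1 - ((τ1 - τ1) - cjt (kk QU c ho.nc) τ1) with hτ2
  have i2 : InR t QW X w τ2 := S.inR_sub i1 (S.inR_sub i0 (hIn c ho.nc i1))
  have e1 : ∀ z u u', polar QU (τ1 z u) u' = polar QU (τ z u) u' -
      polar QU (τ z (kk QU a ho.na u)) (kk QU a ho.na u') := by
    intro z u u'
    rw [hτ1, LinearMap.sub_apply, LinearMap.sub_apply, polar_sub_left, hk]
  have e2 : ∀ z u u', polar QU (τ2 z u) u' = polar QU (τ1 z u) u' +
      polar QU (τ1 z (kk QU c ho.nc u)) (kk QU c ho.nc u') := by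
    intro z u u'
    rw [hτ2, sub_self, zero_sub, sub_neg_eq_add, LinearMap.add_apply, LinearMap.add_apply, polar_add_left, hk]
  have kaa : kk QU a ho.na a = a := kk_self _
  have kab : kk QU a ho.na b = -b := kk_perp _ ho.ab
  have kac : kk QU a ho.na c = -c := kk_perp _ ho.ac
  have kcc : kk QU c ho.nc c = c := kk_self _
  have kca : kk QU c ho.nc a = -a := kk_perp _ ho.ca
  have kcb : kk QU c ho.nc b = -b := kk_perp _ ho.cb
  -- the entries of `τ1`
  have f_aa : ∀ z, polar QU (τ1 z a) a = 0 := by intro z; rw [e1, kaa, sub_self]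
  have f_ab : ∀ z, polar QU (τ1 z a) b = 2 * polar QU (τ z a) b := by
    intro z; rw [e1, kaa, kab, polar_neg_right]; ring
  have f_bb : ∀ z, polar QU (τ1 z b) b = 0 := by
    intro z; rw [e1, kab, map_neg, polar_neg_left, polar_neg_right]; ring
  have f_bc : ∀ z, polar QU (τ1 z b) c = 0 := by
    intro z; rw [e1, kab, kac, map_neg, polar_neg_left, polar_neg_right]; ring
  have f_cc : ∀ z, polar QU (τ1 z c) c = 0 := by
    intro z; rw [e1, kac, map_neg, polar_neg_left, polar_neg_right]; ring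
  -- the entries of `τ2`
  have g_aa : ∀ z, polar QU (τ2 z a) a = 0 := by
    intro z; rw [e2, kca, map_neg, polar_neg_left, polar_neg_right, f_aa]; ring
  have g_ab : ∀ z, polar QU (τ2 z a) b = 4 * polar QU (τ z a) b := by
    intro z; rw [e2, kca, kcb, map_neg, polar_neg_left, polar_neg_right, f_ab]; ring
  have g_ac : ∀ z, polar QU (τ2 z a) c = 0 := by
    intro z; rw [e2, kca, kcc, map_neg, polar_neg_left]; ring
  have g_bb : ∀ z, polar QU (τ2 z b) b = 0 := by
    intro z; rw [e2, kcb, map_neg, polar_neg_left, polar_neg_right, f_bb]; ring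
  have g_bc : ∀ z, polar QU (τ2 z b) c = 0 := by
    intro z; rw [e2, kcb, kcc, map_neg, polar_neg_left]; ring
  have g_cc : ∀ z, polar QU (τ2 z c) c = 0 := by
    intro z; rw [e2, kcc, f_cc]; ring
  -- the representing vector
  obtain ⟨y, hy⟩ := riesz S.ndW (((polarBilin QU).flip b) ∘ₗ (LinearMap.applyₗ a) ∘ₗ τ2)
  have hy' : ∀ z, polar QW y z = polar QU (τ2 z a) b := fun z => hy z
  have hyw : polar QW w y = 0 := by
    obtain ⟨g, hg, hgτ⟩ := i2
    rw [polar_comm, hy', S.tau_self hw hw0 hgτ, polar_zero_left]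
  by_contra hne
  have hne4 : polar QW y z ≠ 0 := by
    rw [hy', g_ab]
    have h4 : (4 : F) = 2 * 2 := by norm_num
    rw [h4]
    exact mul_ne_zero (mul_ne_zero h2 h2) hne
  have hyn : QW y ≠ 0 := by
    intro h0
    obtain ⟨d, rfl⟩ := hX.an w y hw hw0 hyw h0
    rw [polar_smul_left, hz, smul_zero] at hne4
    exact hne4 rfl
  have hyy : polar QW y y ≠ 0 := by
    rw [polar_self']
    exact mul_ne_zero h2 hyn
  have hna : 2 * QU a ≠ 0 := mul_ne_zero h2 ho.na
  have hnb : 2 * QU b ≠ 0 := mul_ne_zero h2 ho.nb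
  -- the operator
  set κ : F := (2 * QU a)⁻¹ * (2 * QU b)⁻¹ with hκ
  have hκ0 : κ ≠ 0 := mul_ne_zero (inv_ne_zero hna) (inv_ne_zero hnb)
  let α : U →ₗ[F] U := κ • ((polarBilin QU a).smulRight b + (polarBilin QU b).smulRight a)
  have hα : ∀ u, α u = κ • (polar QU a u • b + polar QU b u • a) := fun u => rfl
  have hαp : ∀ u u', polar QU (α u) u' = κ * (polar QU a u * polar QU b u' + polar QU b u * polar QU a u') := by
    intro u u'
    rw [hα, polar_smul_left, polar_add_left, polar_smul_left, polar_smul_left]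
    simp only [smul_eq_mul]
  have hαs : ∀ u u', polar QU (α u) u' = polar QU u (α u') := by
    intro u u'
    rw [hαp, polar_comm QU u, hαp]
    ring
  have hτα : ∀ z, polar QW w z = 0 → ∀ u, τ2 z u = ((polarBilin QW y).smulRight α) z u := by
    intro z hz
    have hs := hsymm i2 z hz
    have hval : ∀ u u', polar QU (((polarBilin QW y).smulRight α) z u) u' =
        polar QW y z * (κ * (polar QU a u * polar QU b u' + polar QU b u * polar QU a u')) := by
      intro u u'
      rw [LinearMap.smulRight_apply, LinearMap.smul_apply, polar_smul_left, hαp]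
      rfl
    have hab : polar QU (τ2 z a) b = polar QW y z := (hy' z).symm
    have hk1 : κ * (2 * QU a * (2 * QU b)) = 1 := by
      calc κ * (2 * QU a * (2 * QU b)) = ((2 * QU a)⁻¹ * (2 * QU a)) * ((2 * QU b)⁻¹ * (2 * QU b)) := by
            rw [hκ]; ring
        _ = 1 := by rw [inv_mul_cancel₀ hna, inv_mul_cancel₀ hnb, one_mul]
    refine ho.lext h2 hX.d3 ?_ ?_ ?_
    · refine ho.ext h2 hX.d3 ?_ ?_ ?_
      · rw [hval, g_aa, ho.ba]; ring
      · rw [hval, hab, ho.ba, polar_self', polar_self']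
        linear_combination (-polar QW y z) * hk1
      · rw [hval, g_ac, ho.ba, ho.bc]; ring
    · refine ho.ext h2 hX.d3 ?_ ?_ ?_
      · rw [hval, hs, polar_comm, hab, ho.ab, polar_self', polar_self']
        linear_combination (-polar QW y z) * hk1
      · rw [hval, g_bb, ho.ab]; ring
      · rw [hval, g_bc, ho.ab, ho.ac]; ring
    · refine ho.ext h2 hX.d3 ?_ ?_ ?_
      · rw [hval, hs, polar_comm, g_ac, ho.ac, ho.bc]; ring
      · rw [hval, hs, polar_comm, g_bc, ho.ac, ho.bc]; ring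
      · rw [hval, g_cc, ho.ac, ho.bc]; ring
  have i3 : InR t QW X w ((polarBilin QW y).smulRight α) := inR_congr i2 hτα
  -- a vector of the norm of `c`
  obtain ⟨x, hx0, hx1⟩ := hX.five
  have hfin := hX.fin
  obtain ⟨p, r, hpr⟩ := exists_sq_add_sq h2 ho.na ho.nb ((1 - x * x) * QU c)
  set v := x • c + (p • a + r • b) with hv
  have hvn : QU c = QU v := by
    rw [hv, Q_add, Q_add, QuadraticMap.map_smul, QuadraticMap.map_smul, QuadraticMap.map_smul]
    simp only [polar_add_right, polar_smul_right, polar_smul_left, ho.ca, ho.cb, ho.ab, smul_eq_mul]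
    linear_combination -hpr
  have hcv : polar QU c v = 2 * (x * QU c) := by
    rw [hv, polar_add_right, polar_add_right, polar_smul_right, polar_smul_right, polar_smul_right, ho.ca,
      ho.cb, polar_self']
    simp only [smul_eq_mul]
    ring
  have hn : QU (c + v) ≠ 0 := by
    rw [Q_add, ← hvn, hcv]
    have : QU c + QU c + 2 * (x * QU c) = 2 * QU c * (1 + x) := by ring
    rw [this]
    refine mul_ne_zero (mul_ne_zero h2 ho.nc) ?_
    intro h0
    apply hx1
    have : x = -1 := by linear_combination h0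
    rw [this]; ring
  have i4 : InR t QW X w ((polarBilin QW y).smulRight (cj (kk QU (c + v) hn) α)) := by
    refine S.inR_cj i3 (hX.kU (c + v) hn) fun z => ?_
    ext u
    simp only [LinearMap.smulRight_apply, LinearMap.smul_apply, cj_apply, map_smul]
  have hβs : ∀ u u', polar QU (cj (kk QU (c + v) hn) α u) u' = polar QU u (cj (kk QU (c + v) hn) α u') := by
    intro u u'
    rw [cj_apply, cj_apply, kk_inv, kk_adj, hαs, kk_adj]
  have hcomm := hX.tau_commute hw hw0 hZ hyw hyw hyy i3 i4 hαs hβs v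
  have hhc : kk QU (c + v) hn c = v := kk_swap hvn hn
  have hhv : kk QU (c + v) hn v = c := by
    have := kk_kk hn c
    rwa [hhc] at this
  have hαc : α c = 0 := by rw [hα, ho.ac, ho.bc]; simp
  rw [cj_apply, cj_apply, kk_inv, hhv, hαc, map_zero, map_zero] at hcomm
  have h5 : α (kk QU (c + v) hn (α v)) = 0 := by
    have h6 := congrArg (kk QU (c + v) hn) hcomm
    rw [kk_kk, map_zero] at h6
    exact h6.symm
  -- the kernel of `α`
  have hker : ∀ u, α u = 0 → polar QU a u = 0 ∧ polar QU b u = 0 := by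
    intro u hu
    have h7 := hαp u b
    have h8 := hαp u a
    rw [hu, polar_zero_left, ho.ab, polar_self'] at h7
    rw [hu, polar_zero_left, ho.ba, polar_self'] at h8
    constructor
    · have h9 : κ * (2 * QU b) * polar QU a u = 0 := by linear_combination -h7
      exact (mul_eq_zero.1 h9).resolve_left (mul_ne_zero hκ0 hnb)
    · have h9 : κ * (2 * QU a) * polar QU b u = 0 := by linear_combination -h8
      exact (mul_eq_zero.1 h9).resolve_left (mul_ne_zero hκ0 hna)
  obtain ⟨k1, k2⟩ := hker _ h5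
  have h6 := ho.expand h2 hX.d3 (kk QU (c + v) hn (α v))
  rw [k1, k2] at h6
  simp only [mul_zero, zero_smul, zero_add] at h6
  have h7 := congrArg (kk QU (c + v) hn) h6
  rw [kk_kk, map_smul, hhc] at h7
  set e := (2 * QU c)⁻¹ * polar QU c (kk QU (c + v) hn (α v)) with he
  -- compare the `c`-coordinates
  have h8 := congrArg (polar QU c) h7
  have h9 : polar QU c (α v) = 0 := by
    rw [polar_comm, hαp, ho.ac, ho.bc]; ring
  rw [h9, polar_smul_right, hcv, smul_eq_mul] at h8
  have he0 : e = 0 := by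
    have : e * (2 * (x * QU c)) = 0 := h8.symm
    exact (mul_eq_zero.1 this).resolve_right (mul_ne_zero h2 (mul_ne_zero hx0 ho.nc))
  rw [he0, zero_smul] at h7
  obtain ⟨m1, m2⟩ := hker _ h7
  rw [hv, polar_add_right, polar_add_right, polar_smul_right, polar_smul_right, polar_smul_right, ho.ac,
    ho.ab, polar_self'] at m1
  rw [hv, polar_add_right, polar_add_right, polar_smul_right, polar_smul_right, polar_smul_right, ho.bc,
    ho.ba, polar_self'] at m2
  simp only [smul_eq_mul, mul_zero, zero_add, add_zero] at m1 m2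
  have hp0 : p = 0 := (mul_eq_zero.1 m1).resolve_right hna
  have hr0 : r = 0 := (mul_eq_zero.1 m2).resolve_right hnb
  rw [hp0, hr0] at hpr
  have h10 : (1 - x * x) * QU c = 0 := by linear_combination -hpr
  rcases mul_eq_zero.1 h10 with h11 | h11
  · exact hx1 (by linear_combination -h11)
  · exact ho.nc h11

/-- **The radical of the stabiliser of `U ⊗ w`.** -/
theorem rad_le (hne : ¬ E Q ≤ X) {w : W} (hw : QW w = 0)
    (hw0 : w ≠ 0) {g : V ≃ₗ[F] V} (hg : g ∈ X) (h1 : ∀ u, g (t u w) = t u w)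
    (h2 : ∀ u z, polar QW w z = 0 → ∃ u', g (t u z) = t u z + t u' w) :
    ∃ (x : W) (hx : polar QW w x = 0), g = Cfsg.Agent.H882.Ten.rW S.ten (siegel QW w x hw hx) := by
  have hfU : FiniteDimensional F U := Module.finite_of_finrank_pos (by rw [hX.d3]; norm_num)
  have hfW : FiniteDimensional F W := Module.finite_of_finrank_pos (by rw [hX.d4]; norm_num)
  have hZ : ∀ κ, InZ t QW X w κ → κ = 0 := by
    intro κ hκ
    by_contra h0
    exact hne (hX.E_le_of_inZ (pu_of_three hX.d3 S.ndU) hw hw0 hκ h0)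
  obtain ⟨w', hyp⟩ := LieClassical.OrthTrans.exists_hyp S.ndW hw hw0
  let τ : W →ₗ[F] U →ₗ[F] U := (t.flip).compr₂ (S.cw w' ∘ₗ ((g : V →ₗ[F] V) - LinearMap.id))
  have hτ : ∀ z u, τ z u = S.cw w' (g (t u z) - t u z) := fun z u => rfl
  have hgτ : IsR t QW w g τ := by
    refine ⟨h1, fun u z hz => ?_⟩
    obtain ⟨u', hu'⟩ := h2 u z hz
    have : τ z u = u' := by
      rw [hτ, hu', add_sub_cancel_left, S.cw_t, hyp.pair', one_smul]
    rw [this]
    exact hu'
  have hIn : InR t QW X w τ := ⟨g, hg, hgτ⟩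
  have hoff : ∀ {a b c : U}, OB QU a b c → ∀ z, polar QW w z = 0 → polar QU (τ z a) b = 0 :=
    fun ho z hz => hX.offdiag hw hw0 hZ hIn ho hz
  -- all parameters are scalars
  obtain ⟨u0, u0', hyp0⟩ := hX.sU
  obtain ⟨a, ha⟩ : ∃ a, QU a ≠ 0 := by
    have hc := Cfsg.Agent.H883.Sub.exists_value hyp0 1
    exact ⟨_, by rw [hc.1]; exact one_ne_zero⟩
  obtain ⟨b, c, ho⟩ := exists_OB S.ndU S.two hX.dU ha
  have heq : ∀ {a b c : U}, OB QU a b c → ∀ z, polar QW w z = 0 →
      (2 * QU a)⁻¹ * polar QU a (τ z a) = (2 * QU b)⁻¹ * polar QU b (τ z b) := by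
    intro a b c ho z hz
    obtain ⟨x, hx0, hxn⟩ : ∃ x : F, x ≠ 0 ∧ QU a + x * x * QU b ≠ 0 := by
      by_cases h : QU a + QU b = 0
      · obtain ⟨x, hx0, hx1⟩ := hX.five
        refine ⟨x, hx0, fun h' => ?_⟩
        have : (x * x - 1) * QU b = 0 := by linear_combination h' - h
        rcases mul_eq_zero.1 this with h3 | h3
        · exact hx1 (by linear_combination h3)
        · exact ho.nb h3
      · exact ⟨1, one_ne_zero, by simpa using h⟩
    have hn1 : QU (a + x • b) = QU a + x * x * QU b := by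
      rw [Q_add, QuadraticMap.map_smul, polar_smul_right, ho.ab]
      simp only [smul_eq_mul]
      ring
    have hn2 : QU ((x * QU b) • a + (-QU a) • b) = QU a * QU b * (QU a + x * x * QU b) := by
      rw [Q_add, QuadraticMap.map_smul, QuadraticMap.map_smul, polar_smul_right, polar_smul_left, ho.ab]
      simp only [smul_eq_mul]
      ring
    have ho' : OB QU (a + x • b) ((x * QU b) • a + (-QU a) • b) c := by
      refine ⟨by rw [hn1]; exact hxn, ?_, ho.nc, ?_, ?_, ?_⟩
      · rw [hn2]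
        exact mul_ne_zero (mul_ne_zero ho.na ho.nb) hxn
      · simp only [polar_add_left, polar_add_right, polar_smul_left, polar_smul_right, ho.ab, ho.ba,
          polar_self', smul_eq_mul]
        ring
      · rw [polar_add_left, polar_smul_left, ho.ac, ho.bc]; simp
      · rw [polar_add_left, polar_smul_left, polar_smul_left, ho.ac, ho.bc]; simp
    have h3 := hoff ho' z hz
    have h4 := hoff ho z hz
    have h5 := hoff ho.swap12 z hz
    simp only [map_add, map_smul, polar_add_left, polar_add_right, polar_smul_left, polar_smul_right, h4, h5,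
      smul_eq_mul, mul_zero, add_zero, zero_add] at h3
    have hna : 2 * QU a ≠ 0 := mul_ne_zero S.two ho.na
    have hnb : 2 * QU b ≠ 0 := mul_ne_zero S.two ho.nb
    have hna' := ho.na
    have hnb' := ho.nb
    have h2' := S.two
    rw [polar_comm QU a, polar_comm QU b]
    field_simp
    have h6 : x * (QU b * polar QU (τ z a) a - QU a * polar QU (τ z b) b) = 0 := by linear_combination h3
    have h7 := (mul_eq_zero.1 h6).resolve_left hx0
    linear_combination h7
  have hscal : ∀ z, polar QW w z = 0 → ∃ d : F, ∀ u, τ z u = d • u := by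
    intro z hz
    refine ⟨(2 * QU a)⁻¹ * polar QU a (τ z a), ?_⟩
    have hna : 2 * QU a ≠ 0 := mul_ne_zero S.two ho.na
    have hnb : 2 * QU b ≠ 0 := mul_ne_zero S.two ho.nb
    have hnc : 2 * QU c ≠ 0 := mul_ne_zero S.two ho.nc
    have h3 := heq ho z hz
    have h4 := heq ho.swap23 z hz
    refine ho.lext (f := τ z) (g := ((2 * QU a)⁻¹ * polar QU a (τ z a)) • LinearMap.id) S.two hX.d3 ?_ ?_ ?_
    · rw [LinearMap.smul_apply, LinearMap.id_apply]
      refine ho.ext S.two hX.d3 ?_ ?_ ?_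
      · rw [polar_smul_left, polar_self', polar_comm QU (τ z a) a, smul_eq_mul, mul_right_comm,
          inv_mul_cancel₀ hna, one_mul]
      · rw [hoff ho z hz, polar_smul_left, ho.ab, smul_zero]
      · rw [hoff ho.swap23 z hz, polar_smul_left, ho.ac, smul_zero]
    · rw [LinearMap.smul_apply, LinearMap.id_apply, h3]
      refine ho.ext S.two hX.d3 ?_ ?_ ?_
      · rw [hoff ho.swap12 z hz, polar_smul_left, ho.ba, smul_zero]
      · rw [polar_smul_left, polar_self', polar_comm QU (τ z b) b, smul_eq_mul, mul_right_comm,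
          inv_mul_cancel₀ hnb, one_mul]
      · rw [hoff ho.rot z hz, polar_smul_left, ho.bc, smul_zero]
    · rw [LinearMap.smul_apply, LinearMap.id_apply, h4]
      refine ho.ext S.two hX.d3 ?_ ?_ ?_
      · rw [hoff ho.swap23.swap12 z hz, polar_smul_left, ho.ca, smul_zero]
      · rw [hoff ho.rot.swap12 z hz, polar_smul_left, ho.cb, smul_zero]
      · rw [polar_smul_left, polar_self', polar_comm QU (τ z c) c, smul_eq_mul, mul_right_comm,
          inv_mul_cancel₀ hnc, one_mul]
  -- the vector `x`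
  obtain ⟨x, hx⟩ := riesz S.ndW (-(((polarBilin QU).flip u0') ∘ₗ (LinearMap.applyₗ u0) ∘ₗ τ))
  have hx' : ∀ z, polar QW x z = - polar QU (τ z u0) u0' := fun z => hx z
  have hxw : polar QW w x = 0 := by
    rw [polar_comm, hx', S.tau_self hw hw0 hgτ, polar_zero_left, neg_zero]
  have hval : ∀ z, polar QW w z = 0 → ∀ u, τ z u = -(polar QW x z) • u := by
    intro z hz u
    obtain ⟨c, hc⟩ := hscal z hz
    rw [hx', hc, hc, polar_smul_left, hyp0.pair]
    simp
  refine ⟨x, hxw, ?_⟩
  -- compare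
  set g0 := Cfsg.Agent.H882.Ten.rW S.ten (siegel QW w x hw hxw) with hg0
  have hg0X : g0 ∈ X := hX.rW _ (siegel_mem_E hw hxw)
  have h3 := S.isR_mul_inv hgτ (S.isR_siegel hw hxw)
  have h4 : ∀ u z, polar QW w z = 0 → (g * g0⁻¹) (t u z) = t u z := by
    intro u z hz
    rw [h3.2 u z hz]
    have : (τ - -(polarBilin QW x).smulRight (LinearMap.id : U →ₗ[F] U)) z u = 0 := by
      simp only [LinearMap.sub_apply, LinearMap.neg_apply, LinearMap.smulRight_apply, LinearMap.smul_apply,
        LinearMap.id_apply, polarBilin_apply_apply, hval z hz]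
      module
    rw [this, map_zero, LinearMap.zero_apply, add_zero]
  have h5 : g * g0⁻¹ ∈ X := X.mul_mem hg (X.inv_mem hg0X)
  obtain ⟨κ, hκ⟩ := S.inZ_of_triv hX.le hX.hG.nondeg hyp h5 h4
  have hκ0 := hZ κ ⟨_, h5, hκ⟩
  have h6 : g * g0⁻¹ = 1 := by
    refine ext_t' S.ten fun u z => ?_
    rw [hκ, hκ0]
    simp
  exact mul_inv_eq_one.1 h6

end Ov3

end Cfsg.Agent.H932.Three
end

-- part: H932/ThreeUnip
section
/-!
Unipotent isometries in odd characteristic.
-/

set_option autoImplicit false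
set_option linter.unusedSimpArgs false
set_option linter.unusedSectionVars false

namespace Cfsg.Agent.H932.Three

open QuadraticMap hiding proj
open Cfsg.Agent.LieClassical.OrthCore Cfsg.Agent.LieClassical.OrthTrans
open Cfsg.Agent Cfsg.Agent.H882.Ten

variable {F : Type*} {X : Type*} [Field F] [AddCommGroup X] [Module F X] {R : QuadraticForm F X}

theorem coe_pow_equiv (g : X ≃ₗ[F] X) (k : ℕ) : ((g ^ k : X ≃ₗ[F] X) : X →ₗ[F] X) = (g : X →ₗ[F] X) ^ k :=
  map_pow (LinearEquiv.automorphismGroup.toLinearMapMonoidHom (R := F) (M := X)) g k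

theorem charP_end [Nontrivial X] (p : ℕ) [CharP F p] : CharP (Module.End F X) p :=
  charP_of_injective_algebraMap (FaithfulSMul.algebraMap_injective F (Module.End F X)) p

theorem sub_one_pow [Nontrivial X] {p : ℕ} [hp : Fact p.Prime] [CharP F p] (g : X ≃ₗ[F] X) :
    ((g : X →ₗ[F] X) - 1) ^ p = (g : X →ₗ[F] X) ^ p - 1 := by
  have := charP_end (F := F) (X := X) p
  have h := sub_pow_char_of_commute (p := p) (x := (g : X →ₗ[F] X)) (y := (1 : Module.End F X))
    (Commute.one_right _)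
  rw [one_pow] at h
  exact h

theorem pow_eq_one_iff [Nontrivial X] {p : ℕ} [hp : Fact p.Prime] [CharP F p] (g : X ≃ₗ[F] X) :
    g ^ p = 1 ↔ ((g : X →ₗ[F] X) - 1) ^ p = 0 := by
  rw [sub_one_pow, sub_eq_zero, ← coe_pow_equiv]
  constructor
  · intro h
    rw [h]; rfl
  · intro h
    apply LinearEquiv.toLinearMap_injective
    rw [h]; rfl

theorem odd_of_two_ne {p : ℕ} [hp : Fact p.Prime] [CharP F p] (h2 : (2 : F) ≠ 0) : ∃ k, p = 2 * k + 1 := by
  rcases hp.out.eq_two_or_odd' with h | h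
  · exfalso
    subst h
    exact h2 (CharP.cast_eq_zero F 2)
  · exact h

theorem mem_E_of_pow [FiniteDimensional F X] (hG : Good R) {p k : ℕ} (hp : p = 2 * k + 1) {n : X ≃ₗ[F] X}
    (hn : n ∈ O R) (h : n ^ p = 1) : n ∈ E R := by
  have h1 : n = n ^ (k + 1) * n ^ (k + 1) := by
    rw [← pow_add]
    have : k + 1 + (k + 1) = p + 1 := by omega
    rw [this, pow_succ, h, one_mul]
  rw [h1]
  exact sq_mem_E hG ((O R).pow_mem hn _)

/-- A unipotent isometry is in `E R`. -/
theorem mem_E_of_unip [Finite F] [FiniteDimensional F X] (hG : Good R) (h2 : (2 : F) ≠ 0) {n : X ≃ₗ[F] X}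
    (hn : n ∈ O R) (h3 : ((n : X →ₗ[F] X) - 1) ^ 3 = 0) : n ∈ E R := by
  obtain ⟨p, hp⟩ := CharP.exists F
  have hpp : Fact p.Prime := ⟨(CharP.char_is_prime_or_zero F p).resolve_right
    (fun h => (CharP.char_ne_zero_of_finite F p) h)⟩
  have hnt : Nontrivial X := by
    obtain ⟨x, hx, -⟩ := hG.sing
    exact ⟨x, 0, hx⟩
  obtain ⟨k, hk⟩ := odd_of_two_ne (p := p) h2
  refine mem_E_of_pow hG hk hn ((pow_eq_one_iff n).2 ?_)
  have h4 : 3 ≤ p := by
    have := hpp.out.two_le
    omega
  obtain ⟨m, hm⟩ := Nat.exists_eq_add_of_le h4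
  rw [hm, pow_add, h3, zero_mul]

/-- the relation between `g - 1` and its adjoint -/
theorem polar_sub_one {g : X ≃ₗ[F] X} (hg : g ∈ O R) (x y : X) :
    polar R (g x - x) (g y) = - polar R x (g y - y) := by
  rw [polar_sub_left, polar_map hg, polar_sub_right]
  ring

/-- For a unipotent isometry with `(g - 1)³ = 0` the image of `(g - 1)²` is totally isotropic. -/
theorem polar_sq_sub_one {g : X ≃ₗ[F] X} (hg : g ∈ O R) (h3 : ((g : X →ₗ[F] X) - 1) ^ 3 = 0) (x y : X) :
    polar R ((((g : X →ₗ[F] X) - 1 : Module.End F X) ^ 2 : Module.End F X) x)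
      ((((g : X →ₗ[F] X) - 1 : Module.End F X) ^ 2 : Module.End F X) y) = 0 := by
  set N : Module.End F X := (g : X →ₗ[F] X) - 1 with hN
  have hNa : ∀ x, N x = g x - x := fun x => rfl
  have hN3 : ∀ x, N (N (N x)) = 0 := by
    intro x
    have := LinearMap.congr_fun h3 x
    rw [pow_succ, pow_two] at this
    exact this
  have e2 : ∀ x, (N ^ 2) x = N (N x) := by
    intro x
    rw [pow_two]; rfl
  rw [e2, e2]
  obtain ⟨y', hy'⟩ := g.surjective (N (N y))
  rw [← hy', hNa, polar_sub_one hg]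
  have h1 : g y' - y' = 0 := by
    have h2 : g (g y' - y') = 0 := by
      rw [map_sub, hy']
      have := hN3 y
      rw [hNa] at this
      exact this
    exact (LinearEquiv.map_eq_zero_iff g).1 h2
  rw [h1, polar_zero_right, neg_zero]

/-- A unipotent isometry with `(g - 1)² = 0` of a three-dimensional space is trivial. -/
theorem eq_one_of_sq (h2 : (2 : F) ≠ 0) (hQ : Nondeg R) (hPU : ∀ u v : X, R u = 0 → R v = 0 → polar R u v = 0 →
    u ≠ 0 → ∃ c : F, v = c • u) {g : X ≃ₗ[F] X} (hg : g ∈ O R)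
    (h : ∀ x, g (g x - x) - (g x - x) = 0) : g = 1 := by
  have hz : ∀ x y, polar R (g x - x) (g y - y) = 0 := by
    intro x y
    have h1 := polar_sub_one hg x (g y - y)
    rw [h y, polar_zero_right, neg_zero] at h1
    have h3 : g (g y - y) = g y - y := sub_eq_zero.1 (h y)
    rw [h3] at h1
    exact h1
  have hs : ∀ x y, polar R (g x - x) y = - polar R x (g y - y) := by
    intro x y
    have h1 := polar_sub_one hg x y
    have h3 := hz x y
    rw [polar_sub_right, h1] at h3
    linear_combination -h3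
  have hx : ∀ x, polar R (g x - x) x = 0 := by
    intro x
    have h1 := hs x x
    rw [polar_comm R x] at h1
    have h3 : 2 * polar R (g x - x) x = 0 := by linear_combination h1
    exact (mul_eq_zero.1 h3).resolve_left h2
  have hsing : ∀ x, R (g x - x) = 0 := by
    intro x
    rw [Q_zero_iff h2]
    exact hz x x
  by_contra hne
  obtain ⟨x, hx0⟩ : ∃ x, g x - x ≠ 0 := by
    by_contra hcon
    push Not at hcon
    apply hne
    ext x
    exact sub_eq_zero.1 (hcon x)
  obtain ⟨y, hy⟩ := hQ.exists_polar_eq hx0 1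
  obtain ⟨c, hc⟩ := hPU (g x - x) (g y - y) (hsing x) (hsing y) (hz x y) hx0
  have h1 := hs x y
  rw [hy, hc, polar_smul_right, polar_comm, hx, smul_zero, neg_zero] at h1
  exact one_ne_zero h1

end Cfsg.Agent.H932.Three
end

-- part: H932/ThreeStab
section
/-!
`O₃ ⊗ O₄⁻` in `Ω₁₂⁻(q)`, `q ≥ 5` odd: the stabiliser of `U ⊗ s` (`s` singular) in a proper overgroup lies in the
stabiliser of the tensor decomposition; the elements `1 ⊗ siegel s w` are TI.
-/

set_option autoImplicit false
set_option linter.unusedSimpArgs false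
set_option linter.unusedSectionVars false

namespace Cfsg.Agent.H932.Three

open QuadraticMap hiding proj
open Cfsg.Agent.LieClassical.OrthCore Cfsg.Agent.LieClassical.OrthTrans Cfsg.Agent.H883.Root
open Cfsg.Agent Cfsg.Agent.H882.Ten

variable {F : Type*} {U : Type*} {W : Type*} {V : Type*} [Field F] [AddCommGroup U] [Module F U]
  [AddCommGroup W] [Module F W] [AddCommGroup V] [Module F V]
  {t : U →ₗ[F] W →ₗ[F] V} {QU : QuadraticForm F U} {QW : QuadraticForm F W} {Q : QuadraticForm F V}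
  {X : Subgroup (V ≃ₗ[F] V)} {S : TSt t QU QW Q}

section general

variable (S)

/-- `U ⊗ s` is the orthogonal space of `U ⊗ s^⊥`. -/
theorem mem_of_perp (hQ : Nondeg Q) {s s' : W} (hyp : Hyp QW s s') {z : V}
    (hz : ∀ y, polar QW s y = 0 → S.cw y z = 0) : z = t (S.cw s' z) s := by
  rw [← sub_eq_zero]
  refine hQ _ fun v => ?_
  have : (polarBilin Q) (z - t (S.cw s' z) s) = 0 := by
    refine ext_t S.ten fun u y => ?_
    rw [polarBilin_apply_apply, LinearMap.zero_apply, polar_sub_left]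
    set β := polar QW s y with hβ
    have hz0 : polar QW s (y - β • s') = 0 := by rw [polar_sub_right, polar_smul_right, hyp.pair, hβ]; simp
    have e0 : t u y = t u (y - β • s') + β • t u s' := by rw [map_sub, map_smul]; abel
    have e1 : polar Q z (t u (y - β • s')) = 0 := by rw [S.polar_cw, hz _ hz0, polar_zero_left]
    have e2 : polar Q z (t u s') = polar QU (S.cw s' z) u := S.polar_cw _ _ _
    rw [e0, polar_add_right, polar_add_right, polar_smul_right, polar_smul_right, e1, e2, S.pol, S.pol, hz0,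
      hyp.pair]
    simp only [smul_eq_mul, mul_zero, mul_one, zero_add, sub_self]
  exact LinearMap.congr_fun this v

/-- the action of `1 ⊗ siegel s w` on `U ⊗ s^⊥`. -/
theorem rW_siegel_perp {s s' w : W} (hyp : Hyp QW s s') (hw : polar QW s w = 0) {v : V} (hv : S.cw s v = 0) :
    rW S.ten (siegel QW s w hyp.left hw) v = v - t (S.cw w v) s := by
  rw [S.isR_apply hyp (S.isR_siegel hyp.left hw) hv]
  have h3 : S.hat (-(polarBilin QW w).smulRight (LinearMap.id : U →ₗ[F] U)) v = - S.cw w v := by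
    have : S.hat (-(polarBilin QW w).smulRight (LinearMap.id : U →ₗ[F] U)) = - S.cw w := by
      refine ext_t S.ten fun u z => ?_
      rw [S.hat_t, LinearMap.neg_apply, LinearMap.neg_apply, LinearMap.neg_apply, S.cw_t]
      rfl
    rw [this]; rfl
  rw [h3, map_neg, LinearMap.neg_apply, sub_eq_add_neg]

end general

namespace Ov3

variable (hX : Ov3 S X)

include hX

theorem finU : FiniteDimensional F U := Module.finite_of_finrank_pos (by rw [hX.d3]; norm_num)

theorem finW : FiniteDimensional F W := Module.finite_of_finrank_pos (by rw [hX.d4]; norm_num)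

theorem finV : FiniteDimensional F V := Module.finite_of_finrank_pos (by have := hX.hG.dim; omega)

/-- A nonsingular vector orthogonal to a hyperbolic pair. -/
theorem exists_w0 {s s' : W} (hyp : Hyp QW s s') : ∃ w, polar QW s w = 0 ∧ polar QW s' w = 0 ∧ QW w ≠ 0 :=
  exists_nonsing_perp S.ndW hX.dW hyp

/-- Elements of `X` stabilising `U ⊗ s` normalise the group of the `1 ⊗ siegel s w`. -/
theorem contr (hne : ¬ E Q ≤ X) {s s' : W} (hyp : Hyp QW s s') {m : V ≃ₗ[F] V} (hm : m ∈ X)
    {α : U ≃ₗ[F] U} (hα : ∀ u, m (t u s) = t (α u) s)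
    (hmp : ∀ v, S.cw s v = 0 ↔ S.cw s (m v) = 0) {y : W} (hy : polar QW s y = 0) :
    ∃ w, polar QW s w = 0 ∧ ∀ v, S.cw s v = 0 → S.cw y (m v) = α (S.cw w v) := by
  have hd : rW S.ten (siegel QW s y hyp.left hy) ∈ X := hX.rW _ (siegel_mem_E _ _)
  have hmi : ∀ v, m (m⁻¹ v) = v := fun v => LinearEquiv.apply_symm_apply m v
  have him : ∀ v, m⁻¹ (m v) = v := fun v => LinearEquiv.symm_apply_apply m v
  have hpu : polar QW y s = 0 := by rw [polar_comm]; exact hy
  have hdP : ∀ v, S.cw s v = 0 → (m⁻¹ * rW S.ten (siegel QW s y hyp.left hy) * m) v =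
      v - t (α.symm (S.cw y (m v))) s := by
    intro v hv
    show m⁻¹ (rW S.ten (siegel QW s y hyp.left hy) (m v)) = _
    rw [rW_siegel_perp S hyp hy ((hmp v).1 hv), map_sub, him]
    congr 1
    apply m.injective
    rw [hmi, hα, LinearEquiv.apply_symm_apply]
  have hs0 : polar QW s s = 0 := polar_self_of_sing hyp.left
  obtain ⟨w, hw, he⟩ := hX.rad_le hne hyp.left hyp.left_ne
    (X.mul_mem (X.mul_mem (X.inv_mem hm) hd) hm) (by
      intro u
      rw [hdP _ (by rw [S.cw_t, hs0, zero_smul]), hα, S.cw_t, hpu, zero_smul, map_zero, map_zero,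
        LinearMap.zero_apply, sub_zero]) (by
      intro u z hz
      rw [hdP _ (by rw [S.cw_t, hz, zero_smul])]
      exact ⟨-(α.symm (S.cw y (m (t u z)))), by rw [map_neg, LinearMap.neg_apply, sub_eq_add_neg]⟩)
  refine ⟨w, hw, fun v hv => ?_⟩
  have h1 := hdP v hv
  rw [he, rW_siegel_perp S hyp hw hv] at h1
  have h2 : t (S.cw w v) s = t (α.symm (S.cw y (m v))) s := by
    have := congrArg (fun x => v - x) h1
    simpa using this
  have h3 := t_left_inj S.ten hyp.left_ne h2
  rw [h3, LinearEquiv.apply_symm_apply]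

/-- **The stabiliser of `U ⊗ s`.** -/
theorem stab (hne : ¬ E Q ≤ X) {s : W} (hs : QW s = 0) (hs0 : s ≠ 0) {m : V ≃ₗ[F] V} (hm : m ∈ X)
    (hP : ∀ u, ∃ u', m (t u s) = t u' s) : m ∈ TT t S.ten := by
  have hfU := hX.finU
  have hfW := hX.finW
  have hfV := hX.finV
  have hfin := hX.fin
  have h2 := S.two
  obtain ⟨s', hyp⟩ := LieClassical.OrthTrans.exists_hyp S.ndW hs hs0
  have hmO := hX.le hm
  have hss : polar QW s s = 0 := polar_self_of_sing hs
  -- the action on `U ⊗ s`
  let α0 : U →ₗ[F] U := S.cw s' ∘ₗ (m : V →ₗ[F] V) ∘ₗ t.flip s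
  have hα0 : ∀ u, m (t u s) = t (α0 u) s := by
    intro u
    obtain ⟨u', hu'⟩ := hP u
    have : α0 u = u' := by
      show S.cw s' (m (t u s)) = u'
      rw [hu', S.cw_t, hyp.pair', one_smul]
    rw [this]; exact hu'
  have hinj : Function.Injective α0 := by
    intro x y hxy
    have h := hα0 x
    rw [hxy, ← hα0 y] at h
    exact t_left_inj S.ten hs0 (m.injective h)
  let α : U ≃ₗ[F] U := LinearEquiv.ofInjectiveEndo α0 hinj
  have hα : ∀ u, m (t u s) = t (α u) s := hα0
  have hmp : ∀ v, S.cw s v = 0 ↔ S.cw s (m v) = 0 := by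
    intro v
    rw [S.cw_eq_zero_iff, S.cw_eq_zero_iff]
    constructor
    · intro h u
      have h1 := polar_map hmO v (t (α.symm u) s)
      rw [hα, LinearEquiv.apply_symm_apply, h] at h1
      exact h1
    · intro h u
      rw [← polar_map hmO, hα]
      exact h _
  -- the map on `W`
  obtain ⟨u0, u1, hu⟩ := hX.sU
  obtain ⟨u0', hu0'⟩ := S.ndU.exists_polar_eq (x := α u0)
    (fun h => hu.left_ne ((LinearEquiv.map_eq_zero_iff α).1 h)) 1
  let β0 : W →ₗ[F] W := S.cu u0' ∘ₗ (m : V →ₗ[F] V) ∘ₗ t u0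
  have hβ0 : ∀ x y, polar QW (β0 x) y = polar Q (m (t u0 x)) (t u0' y) := by
    intro x y
    rw [S.polar_cu]; rfl
  have hβs : ∀ x, polar QW s x = 0 → polar QW s (β0 x) = 0 := by
    intro x hx
    rw [polar_comm, hβ0, S.polar_cw, (hmp _).1 (by rw [S.cw_t, hx, zero_smul]), polar_zero_left]
  have hβss : β0 s = s := by
    show S.cu u0' (m (t u0 s)) = s
    rw [hα, S.cu_t, polar_comm, hu0', one_smul]
  -- the key formula
  have key : ∀ u x, polar QW s x = 0 → ∃ u', m (t u x) = t (α u) (β0 x) + t u' s := by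
    intro u x hx
    refine ⟨S.cw s' (m (t u x) - t (α u) (β0 x)), ?_⟩
    have h1 : m (t u x) - t (α u) (β0 x) = t (S.cw s' (m (t u x) - t (α u) (β0 x))) s := by
      refine mem_of_perp S hX.hG.nondeg hyp fun y hy => ?_
      obtain ⟨w, hw, hwv⟩ := hX.contr hne hyp hm hα hmp hy
      have e1 : ∀ a, S.cw s (t a x) = 0 := fun a => by rw [S.cw_t, hx, zero_smul]
      rw [map_sub, hwv _ (e1 u), S.cw_t, S.cw_t, map_smul]
      have e2 : polar QW y (β0 x) = polar QW w x := by
        rw [polar_comm, hβ0, S.polar_cw, hwv _ (e1 u0), S.cw_t, map_smul, polar_smul_left, hu0', smul_eq_mul,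
          mul_one]
      rw [e2, sub_self]
    rw [← h1]; abel
  -- `α` is a similarity
  have hbil : ∀ u u' x x', polar QW s x = 0 → polar QW s x' = 0 →
      polar QU (α u) (α u') * polar QW (β0 x) (β0 x') = polar QU u u' * polar QW x x' := by
    intro u u' x x' hx hx'
    obtain ⟨a, ha⟩ := key u x hx
    obtain ⟨b, hb⟩ := key u' x' hx'
    rw [← S.pol, ← S.pol, ← polar_map hmO (t u x), ha, hb]
    simp only [polar_add_left, polar_add_right, S.pol, hβs x' hx', polar_comm QW (β0 x) s, hβs x hx, hss,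
      mul_zero, add_zero]
  obtain ⟨w0, hw0s, hw0s', hw0⟩ := hX.exists_w0 hyp
  set ν := polar QW (β0 w0) (β0 w0) with hν
  have hww : polar QW w0 w0 ≠ 0 := by rw [polar_self']; exact mul_ne_zero h2 hw0
  have h0 := hbil u0 u1 w0 w0 hw0s hw0s
  rw [hu.pair, one_mul, ← hν] at h0
  have hν0 : ν ≠ 0 := by
    intro h
    rw [h, mul_zero] at h0
    exact hww h0.symm
  set μ := polar QW w0 w0 * ν⁻¹ with hμ
  have hμ0 : μ ≠ 0 := mul_ne_zero hww (inv_ne_zero hν0)
  have hαsim : ∀ x y, polar QU (α x) (α y) = μ * polar QU x y := by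
    intro x y
    have h := hbil x y w0 w0 hw0s hw0s
    rw [← hν] at h
    rw [hμ]
    field_simp
    linear_combination h
  have hβsim : ∀ x x', polar QW s x = 0 → polar QW s x' = 0 →
      polar QW (β0 x) (β0 x') = μ⁻¹ * polar QW x x' := by
    intro x x' hx hx'
    have h := hbil u0 u1 x x' hx hx'
    rw [hαsim, hu.pair, mul_one, one_mul] at h
    rw [← h, ← mul_assoc, inv_mul_cancel₀ hμ0, one_mul]
  -- the map `h₂`
  let pr : W →ₗ[F] W := LinearMap.id - (polarBilin QW s').smulRight s - (polarBilin QW s).smulRight s'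
  have hpr : ∀ x, pr x = x - polar QW s' x • s - polar QW s x • s' := fun x => rfl
  have hprs : ∀ x, polar QW s (pr x) = 0 := by
    intro x
    rw [hpr, polar_sub_right, polar_sub_right, polar_smul_right, polar_smul_right, hss, hyp.pair]; simp
  have hprs' : ∀ x, polar QW s' (pr x) = 0 := by
    intro x
    rw [hpr, polar_sub_right, polar_sub_right, polar_smul_right, polar_smul_right, hyp.pair', hyp.polar_right]
    simp
  have hdec : ∀ x, x = polar QW s' x • s + polar QW s x • s' + pr x := by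
    intro x
    rw [hpr]; abel
  let γ : W →ₗ[F] W := (polarBilin QW s').smulRight s + μ⁻¹ • (polarBilin QW s).smulRight s' +
    (β0 ∘ₗ pr - (polarBilin QW s' ∘ₗ β0 ∘ₗ pr).smulRight s)
  have hγ : ∀ x, γ x = polar QW s' x • s + μ⁻¹ • (polar QW s x • s') +
    (β0 (pr x) - polar QW s' (β0 (pr x)) • s) := fun x => rfl
  have hγsim : ∀ x y, polar QW (γ x) (γ y) = μ⁻¹ * polar QW x y := by
    intro x y
    have hx1 := hβs _ (hprs x)
    have hy1 := hβs _ (hprs y)
    have hx2 : polar QW (β0 (pr x)) s = 0 := by rw [polar_comm]; exact hx1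
    have hy2 : polar QW (pr y) s = 0 := by rw [polar_comm]; exact hprs y
    have hx3 : polar QW (pr x) s = 0 := by rw [polar_comm]; exact hprs x
    have hx4 : polar QW (pr x) s' = 0 := by rw [polar_comm]; exact hprs' x
    have e1 : polar QW (γ x) (γ y) = μ⁻¹ * (polar QW s' x * polar QW s y + polar QW s x * polar QW s' y +
        polar QW (pr x) (pr y)) := by
      rw [hγ, hγ]
      simp only [polar_add_left, polar_add_right, polar_sub_left, polar_sub_right, polar_smul_left,
        polar_smul_right, hss, hyp.pair, hyp.pair', hyp.polar_right, hx1, hy1, hx2,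
        hβsim _ _ (hprs x) (hprs y), smul_eq_mul, polar_comm QW (β0 (pr x)) s']
      ring
    have e2 : polar QW x y = polar QW s' x * polar QW s y + polar QW s x * polar QW s' y +
        polar QW (pr x) (pr y) := by
      conv_lhs => rw [hdec x, hdec y]
      simp only [polar_add_left, polar_add_right, polar_smul_left,
        polar_smul_right, hss, hyp.pair, hyp.pair', hyp.polar_right, hprs, hprs', hx3, hx4, smul_eq_mul]
      ring
    rw [e1, e2]
  have hγinj : Function.Injective γ := by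
    intro x y hxy
    rw [← sub_eq_zero]
    refine S.ndW _ fun z => ?_
    have h3 := hγsim (x - y) z
    rw [map_sub, hxy, sub_self, polar_zero_left] at h3
    exact (mul_eq_zero.1 h3.symm).resolve_left (inv_ne_zero hμ0)
  let β : W ≃ₗ[F] W := LinearEquiv.ofInjectiveEndo γ hγinj
  have hβ : ∀ x, β x = γ x := fun x => rfl
  have hγs : γ s = s := by
    have : pr s = 0 := by rw [hpr, hyp.pair', hss]; simp
    rw [hγ, this, hyp.pair', hss]; simp
  -- the tensor element
  set h := tm S.ten α β with hh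
  have hhO : h ∈ O Q := S.tm_mem_O_of_sim hμ0 hαsim hγsim
  have hhs : ∀ u, h (t u s) = m (t u s) := by
    intro u
    rw [hh, tm_apply, hα, hβ, hγs]
  have hhx : ∀ u x, polar QW s x = 0 → ∃ u', m (t u x) = h (t u x) + t u' s := by
    intro u x hx
    obtain ⟨a, ha⟩ := key u x hx
    refine ⟨a + polar QW s' (β0 (pr x)) • α u, ?_⟩
    have e1 : β0 x = γ x + polar QW s' (β0 (pr x)) • s := by
      have e2 : x = polar QW s' x • s + pr x := by
        have := hdec x
        rw [hx, zero_smul, add_zero] at this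
        exact this
      have e3 : β0 x = polar QW s' x • s + β0 (pr x) := by
        conv_lhs => rw [e2]
        rw [map_add, map_smul, hβss]
      rw [e3, hγ, hx]
      module
    rw [ha, hh, tm_apply, hβ, e1]
    simp only [map_add, map_smul, LinearMap.add_apply, LinearMap.smul_apply]
    abel
  set n := h⁻¹ * m with hn
  have hni : ∀ v, n v = h⁻¹ (m v) := fun v => rfl
  have hih : ∀ v, h⁻¹ (h v) = v := fun v => LinearEquiv.symm_apply_apply h v
  have hns : ∀ u, n (t u s) = t u s := by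
    intro u
    rw [hni, ← hhs, hih]
  have his : ∀ u, ∃ u', h⁻¹ (t u s) = t u' s := by
    intro u
    refine ⟨α.symm u, ?_⟩
    have : h (t (α.symm u) s) = t u s := by rw [hhs, hα, LinearEquiv.apply_symm_apply]
    rw [← this, hih]
  have hnx : ∀ u x, polar QW s x = 0 → ∃ u', n (t u x) = t u x + t u' s := by
    intro u x hx
    obtain ⟨a, ha⟩ := hhx u x hx
    obtain ⟨b, hb⟩ := his a
    exact ⟨b, by rw [hni, ha, map_add, hih, hb]⟩
  have hnO : n ∈ O Q := (O Q).mul_mem ((O Q).inv_mem hhO) hmO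
  -- `n` is unipotent
  have hn3 : ((n : V →ₗ[F] V) - 1 : Module.End F V) ^ 3 = 0 := by
    set N : Module.End F V := (n : V →ₗ[F] V) - 1 with hN
    have hNa : ∀ v, N v = n v - v := fun v => rfl
    have h5 : ∀ v, S.cw s (N v) = 0 := by
      intro v
      rw [S.cw_eq_zero_iff]
      intro u
      rw [hNa, polar_sub_left]
      have := polar_map hnO v (t u s)
      rw [hns] at this
      rw [this, sub_self]
    have h6 : ∀ v, S.cw s v = 0 → ∃ u, N v = t u s := by
      -- linearity: `N v - t (..) s` vanishes on `U ⊗ s^⊥`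
      have h7 : ∀ v, N v = t (S.cw s' (N v)) s + (N (t (S.cw s v) s') - t (S.cw s' (N (t (S.cw s v) s'))) s) := by
        intro v
        have : N = t.flip s ∘ₗ S.cw s' ∘ₗ N + (N - t.flip s ∘ₗ S.cw s' ∘ₗ N) ∘ₗ t.flip s' ∘ₗ S.cw s := by
          refine ext_t S.ten fun u z => ?_
          simp only [LinearMap.add_apply, LinearMap.sub_apply, LinearMap.comp_apply, LinearMap.flip_apply,
            S.cw_t]
          set β := polar QW s z with hβ
          have hz0 : polar QW s (z - β • s') = 0 := by rw [polar_sub_right, polar_smul_right, hyp.pair, hβ]; simp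
          obtain ⟨a, ha⟩ := hnx u _ hz0
          have e1 : N (t u (z - β • s')) = t a s := by rw [hNa, ha, add_sub_cancel_left]
          have e2 : S.cw s' (N (t u (z - β • s'))) = a := by rw [e1, S.cw_t, hyp.pair', one_smul]
          have e3 : t u z = t u (z - β • s') + β • t u s' := by rw [map_sub, map_smul]; abel
          rw [e3, map_add N, map_add (S.cw s'), e2, e1]
          simp only [map_smul, LinearMap.smul_apply, map_add, LinearMap.add_apply]
          module
        exact LinearMap.congr_fun this v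
      intro v hv
      refine ⟨S.cw s' (N v), ?_⟩
      conv_lhs => rw [h7 v]
      rw [hv]
      simp
    ext v
    rw [pow_succ, pow_two]
    show N (N (N v)) = 0
    obtain ⟨u, hu⟩ := h6 (N v) (h5 v)
    rw [hu, hNa, hns, sub_self]
  have hnE : n ∈ E Q := mem_E_of_unip hX.hG h2 hnO hn3
  have hhE : h ∈ E Q := by
    have : h = m * n⁻¹ := by rw [hn]; group
    rw [this]
    exact (E Q).mul_mem (hX.leE hm) ((E Q).inv_mem hnE)
  have hhX : h ∈ X := hX.ge h (tm_mem_TT _ _ _) hhE
  have hnX : n ∈ X := X.mul_mem (X.inv_mem hhX) hm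
  obtain ⟨x, hx, he⟩ := hX.rad_le hne hs hs0 hnX hns hnx
  have : m = h * n := by rw [hn]; group
  rw [this, he]
  exact (TT t S.ten).mul_mem (tm_mem_TT _ _ _) (tm_mem_TT _ _ _)

end Ov3

end Cfsg.Agent.H932.Three
end

-- part: H932/ThreeTI
section
/-!
`O₃ ⊗ O₄⁻` in `Ω₁₂⁻(q)`, `q ≥ 5` odd: the elements `1 ⊗ siegel s w` are TI in a proper overgroup.
-/

set_option autoImplicit false
set_option linter.unusedSimpArgs false
set_option linter.unusedSectionVars false

namespace Cfsg.Agent.H932.Three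

open QuadraticMap hiding proj
open Cfsg.Agent.LieClassical.OrthCore Cfsg.Agent.LieClassical.OrthTrans Cfsg.Agent.H883.Root
open Cfsg.Agent Cfsg.Agent.H882.Ten

variable {F : Type*} {U : Type*} {W : Type*} {V : Type*} [Field F] [AddCommGroup U] [Module F U]
  [AddCommGroup W] [Module F W] [AddCommGroup V] [Module F V]
  {t : U →ₗ[F] W →ₗ[F] V} {QU : QuadraticForm F U} {QW : QuadraticForm F W} {Q : QuadraticForm F V}
  {X : Subgroup (V ≃ₗ[F] V)} {S : TSt t QU QW Q}

/-- If `k ⊗ l = 1` then `k` and `l` are inverse scalars. -/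
theorem scalars_of_tm_eq_one (ht : IsTensorProduct t) [Nontrivial U] [Nontrivial W] {k : U ≃ₗ[F] U}
    {l : W ≃ₗ[F] W} (h : tm ht k l = 1) :
    ∃ c : F, c ≠ 0 ∧ (∀ u, k u = c • u) ∧ ∀ w, l w = c⁻¹ • w := by
  have hkl : ∀ u w, t (k u) (l w) = t u w := by
    intro u w
    rw [← tm_apply ht, h]; rfl
  obtain ⟨w0, hw0⟩ := exists_ne (0 : W)
  obtain ⟨u0, hu0⟩ := exists_ne (0 : U)
  have hlw0 : l w0 ≠ 0 := fun h0 => hw0 ((LinearEquiv.map_eq_zero_iff l).1 h0)
  obtain ⟨φ, hφ⟩ := Module.Projective.exists_dual_ne_zero F hlw0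
  have hk : ∀ u, k u = (φ (l w0))⁻¹ • (φ w0 • u) := by
    intro u
    have h1 := congrArg (cW ht φ) (hkl u w0)
    rw [cW_apply, cW_apply] at h1
    rw [← h1, smul_smul, inv_mul_cancel₀ hφ, one_smul]
  set c := (φ (l w0))⁻¹ * φ w0 with hc
  have hkc : ∀ u, k u = c • u := by
    intro u
    rw [hk, smul_smul]
  have hc0 : c ≠ 0 := by
    intro h0
    apply hu0
    have := hkc u0
    rw [h0, zero_smul] at this
    exact (LinearEquiv.map_eq_zero_iff k).1 this
  refine ⟨c, hc0, hkc, fun w => ?_⟩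
  have h1 := hkl u0 w
  rw [hkc, map_smul, LinearMap.smul_apply] at h1
  have h2 : t u0 (c • l w) = t u0 w := by rw [map_smul]; exact h1
  have h3 := t_right_inj ht hu0 h2
  calc l w = c⁻¹ • (c • l w) := by rw [smul_smul, inv_mul_cancel₀ hc0, one_smul]
    _ = c⁻¹ • w := by rw [h3]

/-- Rescaling. -/
theorem tm_rescale (ht : IsTensorProduct t) (k : U ≃ₗ[F] U) (l : W ≃ₗ[F] W) {c : F} (hc : c ≠ 0) :
    tm ht (k * LinearEquiv.smulOfNeZero F U c⁻¹ (inv_ne_zero hc)) (l * LinearEquiv.smulOfNeZero F W c hc) =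
      tm ht k l := by
  refine ext_t' ht fun u w => ?_
  rw [tm_apply, tm_apply]
  show t (k (c⁻¹ • u)) (l (c • w)) = _
  rw [map_smul, map_smul, map_smul, map_smul, LinearMap.smul_apply, smul_smul, mul_inv_cancel₀ hc, one_smul]

theorem mul_smul_pow {Y : Type*} [AddCommGroup Y] [Module F Y] (k : Y ≃ₗ[F] Y) {c : F} (hc : c ≠ 0) (n : ℕ)
    (u : Y) : ((k * LinearEquiv.smulOfNeZero F Y c hc) ^ n) u = c ^ n • (k ^ n) u := by
  induction n with
  | zero => simp
  | succ n ih =>
    rw [pow_succ', pow_succ', pow_succ']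
    show k (c • ((k * LinearEquiv.smulOfNeZero F Y c hc) ^ n) u) = (c * c ^ n) • k ((k ^ n) u)
    rw [ih, map_smul, map_smul, smul_smul]

theorem tm_pow (ht : IsTensorProduct t) (k : U ≃ₗ[F] U) (l : W ≃ₗ[F] W) (n : ℕ) :
    tm ht k l ^ n = tm ht (k ^ n) (l ^ n) := by
  induction n with
  | zero => rw [pow_zero, pow_zero, pow_zero, tm_one]
  | succ n ih => rw [pow_succ, ih, ← tm_mul, pow_succ, pow_succ]

/-- A `p`-element of the form `k ⊗ l` can be written with `k ^ p = 1`, `l ^ p = 1`. -/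
theorem exists_tm_pow_eq_one [Finite F] (ht : IsTensorProduct t) [Nontrivial U] [Nontrivial W] {p : ℕ}
    [hp : Fact p.Prime] [CharP F p] {k : U ≃ₗ[F] U} {l : W ≃ₗ[F] W} (h : tm ht k l ^ p = 1) :
    ∃ (k' : U ≃ₗ[F] U) (l' : W ≃ₗ[F] W), tm ht k l = tm ht k' l' ∧ k' ^ p = 1 ∧ l' ^ p = 1 := by
  rw [tm_pow] at h
  obtain ⟨c, hc0, hk, hl⟩ := scalars_of_tm_eq_one ht h
  have hbij : Function.Surjective (frobenius F p) :=
    Finite.surjective_of_injective (frobenius_inj F p)
  obtain ⟨b, hb⟩ := hbij c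
  have hb' : b ^ p = c := hb
  have hb0 : b ≠ 0 := by
    rintro rfl
    rw [zero_pow hp.out.ne_zero] at hb'
    exact hc0 hb'.symm
  refine ⟨_, _, (tm_rescale ht k l hb0).symm, ?_, ?_⟩
  · ext u
    rw [mul_smul_pow, hk, smul_smul, inv_pow, hb', inv_mul_cancel₀ hc0, one_smul]
    rfl
  · ext w
    rw [mul_smul_pow, hl, smul_smul, hb', mul_inv_cancel₀ hc0, one_smul]
    rfl

theorem sim_pow {Y : Type*} [AddCommGroup Y] [Module F Y] {R : QuadraticForm F Y} {k : Y ≃ₗ[F] Y} {c : F}
    (h : ∀ x y, polar R (k x) (k y) = c * polar R x y) (n : ℕ) (x y : Y) :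
    polar R ((k ^ n) x) ((k ^ n) y) = c ^ n * polar R x y := by
  induction n with
  | zero => simp
  | succ n ih =>
    rw [pow_succ', pow_succ']
    show polar R (k ((k ^ n) x)) (k ((k ^ n) y)) = _
    rw [h, ih, mul_assoc]

/-- A similarity of order dividing the characteristic is an isometry. -/
theorem isometry_of_pow [Finite F] {Y : Type*} [AddCommGroup Y] [Module F Y] {R : QuadraticForm F Y}
    (h2 : (2 : F) ≠ 0) (hR : Nondeg R)
    [Nontrivial Y] {p : ℕ} [hp : Fact p.Prime] [CharP F p] {k : Y ≃ₗ[F] Y} {c : F}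
    (h : ∀ x y, polar R (k x) (k y) = c * polar R x y) (hk : k ^ p = 1) : c = 1 ∧ k ∈ O R := by
  obtain ⟨x0, hx0⟩ := exists_ne (0 : Y)
  obtain ⟨x1, hx1⟩ := hR.exists_polar_eq hx0 1
  have h1 := sim_pow h p x0 x1
  rw [hk] at h1
  have h3 : c ^ p = 1 := by
    rw [hx1, mul_one] at h1
    have h4 : polar R x0 x1 = c ^ p := h1
    rw [← h4, hx1]
  have hc : c = 1 := by
    apply frobenius_inj F p
    show c ^ p = 1 ^ p
    rw [h3, one_pow]
  refine ⟨hc, mem_O_of_polar h2 fun x y => by rw [h, hc, one_mul]⟩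

namespace Ov3

variable (hX : Ov3 S X)

include hX

/-- square of `siegel - 1` -/
theorem siegel_sq {s w : W} (hs : QW s = 0) (hw : polar QW s w = 0) (v : V) :
    rW S.ten (siegel QW s w hs hw) (rW S.ten (siegel QW s w hs hw) v - v) -
      (rW S.ten (siegel QW s w hs hw) v - v) = (-(2 * QW w)) • t (S.cw s v) s := by
  have hss : polar QW s s = 0 := polar_self_of_sing hs
  have hws : polar QW w s = 0 := by rw [polar_comm]; exact hw
  set d := rW S.ten (siegel QW s w hs hw) with hd
  have : ((d : V →ₗ[F] V) - LinearMap.id) ∘ₗ ((d : V →ₗ[F] V) - LinearMap.id) =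
      (-(2 * QW w)) • (t.flip s ∘ₗ S.cw s) := by
    refine ext_t S.ten fun u x => ?_
    simp only [LinearMap.comp_apply, LinearMap.sub_apply, LinearMap.id_apply, LinearEquiv.coe_coe,
      LinearMap.smul_apply, LinearMap.flip_apply, S.cw_t]
    have e1 : d (t u x) - t u x = t u (polar QW s x • w - polar QW w x • s - (QW w * polar QW s x) • s) := by
      rw [hd, rW_apply, ← map_sub, siegel_apply]
      congr 1
      abel
    rw [e1, hd, rW_apply, ← map_sub, siegel_apply]
    simp only [polar_sub_right, polar_smul_right, hw, hss, hws, polar_self' w, smul_eq_mul]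
    rw [show t (polar QW s x • u) s = polar QW s x • t u s by rw [map_smul, LinearMap.smul_apply], smul_smul,
      ← map_smul]
    congr 1
    module
  exact LinearMap.congr_fun this v

/-- **TI.** -/
theorem ti (hne : ¬ E Q ≤ X) {s w : W} (hs : QW s = 0) (hs0 : s ≠ 0) (hw : polar QW s w = 0) (hwn : QW w ≠ 0)
    {g : V ≃ₗ[F] V} (hg : g ∈ X)
    (h : g * rW S.ten (siegel QW s w hs hw) * g⁻¹ ∈ TT t S.ten) : g ∈ TT t S.ten := by
  have hfU := hX.finU
  have hfW := hX.finW
  have hfV := hX.finV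
  have hfin := hX.fin
  have h2 := S.two
  have hgO := hX.le hg
  obtain ⟨s', hyp⟩ := LieClassical.OrthTrans.exists_hyp S.ndW hs hs0
  have hntW : Nontrivial W := ⟨s, 0, hs0⟩
  obtain ⟨u0, u1, hu⟩ := hX.sU
  have hntU : Nontrivial U := ⟨u0, 0, hu.left_ne⟩
  have hntV : Nontrivial V := ⟨t u0 s, 0, t_ne S.ten hu.left_ne hs0⟩
  obtain ⟨p, hp⟩ := CharP.exists F
  have hpp : Fact p.Prime := ⟨(CharP.char_is_prime_or_zero F p).resolve_right
    (fun h => (CharP.char_ne_zero_of_finite F p) h)⟩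
  obtain ⟨k0, hk0⟩ := odd_of_two_ne (p := p) h2
  have hp3 : 3 ≤ p := by
    have := hpp.out.two_le
    omega
  set d := rW S.ten (siegel QW s w hs hw) with hd
  set κ : F := -(2 * QW w) with hκ
  have hκ0 : κ ≠ 0 := neg_ne_zero.2 (mul_ne_zero h2 hwn)
  have hd2 : ∀ v, d (d v - v) - (d v - v) = κ • t (S.cw s v) s := fun v => hX.siegel_sq hs hw v
  have hss : polar QW s s = 0 := polar_self_of_sing hs
  have hws : polar QW w s = 0 := by rw [polar_comm]; exact hw
  have hds : ∀ u, d (t u s) = t u s := by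
    intro u
    rw [hd, rW_apply, siegel_apply, hss, hws]
    simp
  -- the conjugate
  set a : V ≃ₗ[F] V := g * d * g⁻¹ with ha
  have hgi : ∀ v, g (g⁻¹ v) = v := fun v => LinearEquiv.apply_symm_apply g v
  have hig : ∀ v, g⁻¹ (g v) = v := fun v => LinearEquiv.symm_apply_apply g v
  have hav : ∀ v, a v = g (d (g⁻¹ v)) := fun v => rfl
  have ha2 : ∀ v, a (a v - v) - (a v - v) = κ • g (t (S.cw s (g⁻¹ v)) s) := by
    intro v
    have e1 : a v - v = g (d (g⁻¹ v) - g⁻¹ v) := by rw [hav, map_sub, hgi]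
    have e2 : a (a v - v) = g (d (d (g⁻¹ v) - g⁻¹ v)) := by rw [e1, hav, hig]
    rw [e2, e1, ← map_sub, hd2, map_smul]
  have ha3 : ((a : V →ₗ[F] V) - 1 : Module.End F V) ^ 3 = 0 := by
    ext v
    rw [pow_succ', pow_two]
    show a (a (a v - v) - (a v - v)) - (a (a v - v) - (a v - v)) = 0
    rw [ha2 v, map_smul, hav, hig, hds, sub_self]
  have hap : a ^ p = 1 := by
    rw [pow_eq_one_iff]
    obtain ⟨m, hm⟩ := Nat.exists_eq_add_of_le hp3
    rw [hm, pow_add, ha3, zero_mul]
  obtain ⟨k, l, hkl⟩ := mem_TT.1 h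
  rw [hkl] at hap
  obtain ⟨k', l', hkl', hk', hl'⟩ := exists_tm_pow_eq_one S.ten hap
  have haT : a = tm S.ten k' l' := by rw [hkl, hkl']
  have haO : a ∈ O Q := (O Q).mul_mem ((O Q).mul_mem hgO (S.rW_mem_O (siegel_mem_O _ _))) ((O Q).inv_mem hgO)
  obtain ⟨c, hc0, hkc, hlc⟩ := S.sim_of_mem_O (k := k') (l := l') (by rw [← haT]; exact haO)
  obtain ⟨hc1, hk'O⟩ := isometry_of_pow h2 S.ndU hkc hk'
  obtain ⟨-, hl'O⟩ := isometry_of_pow h2 S.ndW hlc hl'
  have hat : ∀ u x, a (t u x) = t (k' u) (l' x) := fun u x => by rw [haT, tm_apply]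
  -- `k' = 1`
  set N : Module.End F U := (k' : U →ₗ[F] U) - 1 with hN
  have hNa : ∀ u, N u = k' u - u := fun u => rfl
  have hN3 : ∀ u, N (N (N u)) = 0 := by
    have hNp : N ^ p = 0 := (pow_eq_one_iff k').1 hk'
    have h3 := Module.End.ker_pow_le_ker_pow_finrank N p
    rw [hNp, hX.d3] at h3
    intro u
    have h4 : u ∈ LinearMap.ker (N ^ 3) := h3 (by rw [LinearMap.mem_ker]; rfl)
    rw [LinearMap.mem_ker, pow_succ, pow_two] at h4
    exact h4
  have hN2 : ∀ u, N (N u) = 0 := by
    intro f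
    by_contra hf
    have hnot : N (N f) ∉ Submodule.span F {f, N f} := by
      intro hmem
      obtain ⟨x, y, hxy⟩ := Submodule.mem_span_pair.1 hmem
      have e1 := congrArg (fun z => N (N z)) hxy
      simp only [map_add, map_smul, hN3, smul_zero, add_zero, map_zero] at e1
      have hx0 : x = 0 := (smul_eq_zero.1 e1).resolve_right hf
      rw [hx0, zero_smul, zero_add] at hxy
      have e2 := congrArg N hxy
      rw [map_smul, hN3] at e2
      have hy0 : y = 0 := (smul_eq_zero.1 e2).resolve_right hf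
      rw [hy0, zero_smul] at hxy
      exact hf hxy.symm
    obtain ⟨φ, hφ, hφ'⟩ := Submodule.exists_le_ker_of_notMem hnot
    have hφf : φ f = 0 := hφ' (Submodule.subset_span (by simp))
    have hφN : φ (N f) = 0 := hφ' (Submodule.subset_span (by simp))
    have hinj : Function.Injective (S.cw s ∘ₗ (g⁻¹ : V ≃ₗ[F] V).toLinearMap ∘ₗ t f) := by
      rw [← LinearMap.ker_eq_bot, LinearMap.ker_eq_bot']
      intro x hx
      have hx' : S.cw s (g⁻¹ (t f x)) = 0 := hx
      have e1 := ha2 (t f x)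
      rw [hx', map_zero, LinearMap.zero_apply, map_zero, smul_zero] at e1
      have e2 : a (a (t f x) - t f x) - (a (t f x) - t f x) =
          t (k' (k' f)) (l' (l' x)) - t (k' f) (l' x) - (t (k' f) (l' x) - t f x) := by
        rw [map_sub, hat, hat]
      rw [e2] at e1
      have e3 := congrArg (cU S.ten φ) e1
      simp only [map_sub, cU_apply, map_zero] at e3
      have f1 : φ (k' f) = 0 := by
        have : k' f = N f + f := by rw [hNa]; abel
        rw [this, map_add, hφN, hφf, add_zero]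
      have f2 : φ (k' (k' f)) = φ (N (N f)) := by
        have : k' (k' f) = N (N f) + N f + N f + f := by
          rw [hNa, hNa, map_sub]; abel
        rw [this]
        simp only [map_add, hφN, hφf, add_zero]
      rw [f1, f2, hφf] at e3
      simp only [zero_smul, sub_zero] at e3
      have f3 := (smul_eq_zero.1 e3).resolve_left hφ
      exact (LinearEquiv.map_eq_zero_iff l').1 ((LinearEquiv.map_eq_zero_iff l').1 f3)
    have := LinearMap.finrank_le_finrank_of_injective hinj
    rw [hX.d3, hX.d4] at this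
    omega
  have hk1 : k' = 1 := eq_one_of_sq h2 S.ndU (fun u v hu hv huv hu0 => iso_three hX.d3 S.ndU hu hv huv hu0) hk'O
    (fun x => hN2 x)
  -- the square of `l' - 1`
  set L : Module.End F W := (l' : W →ₗ[F] W) - 1 with hL
  have hLa : ∀ x, L x = l' x - x := fun x => rfl
  have hat' : ∀ u x, a (t u x) = t u (l' x) := fun u x => by rw [hat, hk1]; rfl
  have haL : ∀ u x, a (t u x) - t u x = t u (L x) := by
    intro u x
    rw [hat', hLa, map_sub]
  have haL2 : ∀ u x, a (a (t u x) - t u x) - (a (t u x) - t u x) = t u (L (L x)) := by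
    intro u x
    rw [haL, haL]
  have hL3 : (L : Module.End F W) ^ 3 = 0 := by
    ext x
    have e1 := LinearMap.congr_fun ha3 (t u0 x)
    rw [pow_succ, pow_two] at e1 ⊢
    have e2 : (((a : V →ₗ[F] V) - 1 : Module.End F V) * ((a : V →ₗ[F] V) - 1) * ((a : V →ₗ[F] V) - 1)) (t u0 x)
        = t u0 (L (L (L x))) := by
      show a (a (a (t u0 x) - t u0 x) - (a (t u0 x) - t u0 x)) - (a (a (t u0 x) - t u0 x) -
        (a (t u0 x) - t u0 x)) = _
      rw [haL, haL, haL]
    rw [e2] at e1
    show L (L (L x)) = 0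
    rcases eq_or_ne (L (L (L x))) 0 with h0 | h0
    · exact h0
    · exact absurd (eq_zero_of_t S.ten e1 h0) hu.left_ne
  have hLt : ∀ x y, polar QW (L (L x)) (L (L y)) = 0 := by
    intro x y
    have := polar_sq_sub_one hl'O hL3 x y
    rw [pow_two] at this
    exact this
  obtain ⟨x0, hx0⟩ : ∃ x0, L (L x0) ≠ 0 := by
    by_contra hcon
    push Not at hcon
    -- `(a - 1)² = 0`
    have e1 : ∀ v, a (a v - v) - (a v - v) = 0 := by
      intro v
      induction v using S.ten.inductionOn with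
      | zero => simp
      | tmul u x => rw [haL2, hcon, map_zero]
      | add x y hx hy =>
        have : a (a (x + y) - (x + y)) - (a (x + y) - (x + y)) =
          (a (a x - x) - (a x - x)) + (a (a y - y) - (a y - y)) := by
          simp only [map_add, map_sub]; abel
        rw [this, hx, hy, add_zero]
    have e2 := ha2 (g (t u0 s'))
    rw [e1, hig, S.cw_t, hyp.pair, one_smul] at e2
    have e3 := (smul_eq_zero.1 e2.symm).resolve_left hκ0
    exact t_ne S.ten hu.left_ne hs0 ((LinearEquiv.map_eq_zero_iff g).1 e3)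
  set s1 := L (L x0) with hs1
  have hs1s : QW s1 = 0 := by
    rw [Q_zero_iff h2]
    exact hLt x0 x0
  have hmul : ∀ x, ∃ c : F, L (L x) = c • s1 := by
    intro x
    exact hX.an s1 (L (L x)) hs1s hx0 (hLt x0 x) (by rw [Q_zero_iff h2]; exact hLt x x)
  -- `g` maps `U ⊗ s` to `U ⊗ s1`
  have himg : ∀ v, ∃ u', a (a v - v) - (a v - v) = t u' s1 := by
    intro v
    induction v using S.ten.inductionOn with
    | zero => exact ⟨0, by simp⟩
    | tmul u x =>
      obtain ⟨c, hc⟩ := hmul x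
      exact ⟨c • u, by rw [haL2, hc, map_smul, map_smul, LinearMap.smul_apply]⟩
    | add x y hx hy =>
      obtain ⟨u1, h1⟩ := hx
      obtain ⟨u2, h2⟩ := hy
      refine ⟨u1 + u2, ?_⟩
      have : a (a (x + y) - (x + y)) - (a (x + y) - (x + y)) =
        (a (a x - x) - (a x - x)) + (a (a y - y) - (a y - y)) := by
        simp only [map_add, map_sub]; abel
      rw [this, h1, h2, map_add, LinearMap.add_apply]
  have hgs : ∀ u, ∃ u', g (t u s) = t u' s1 := by
    intro u
    have e2 := ha2 (g (t u s'))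
    rw [hig, S.cw_t, hyp.pair, one_smul] at e2
    obtain ⟨u', hu'⟩ := himg (g (t u s'))
    refine ⟨κ⁻¹ • u', ?_⟩
    rw [map_smul, LinearMap.smul_apply, ← hu', e2, smul_smul, inv_mul_cancel₀ hκ0, one_smul]
  obtain ⟨r, hr, hrs⟩ := hX.tr hs1s hs hx0 hs0
  have hrX := hX.rW r hr
  have h5 := hX.stab hne hs hs0 (X.mul_mem hrX hg) (by
    intro u
    obtain ⟨u', hu'⟩ := hgs u
    refine ⟨u', ?_⟩
    show Cfsg.Agent.H882.Ten.rW S.ten r (g (t u s)) = _
    rw [hu', rW_apply, hrs])
  have h6 : g = (Cfsg.Agent.H882.Ten.rW S.ten r)⁻¹ * (Cfsg.Agent.H882.Ten.rW S.ten r * g) := by group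
  rw [h6]
  exact (TT t S.ten).mul_mem ((TT t S.ten).inv_mem (tm_mem_TT _ _ _)) h5

end Ov3

end Cfsg.Agent.H932.Three
end

-- part: H932/ThreeDim
section
/-!
Linear algebra for `O₃ ⊗ O₄⁻`: involutions `k ⊗ l` with a fixed space of dimension four; multipliers of
similarities of three-dimensional spaces are squares.
-/

set_option autoImplicit false
set_option linter.unusedSimpArgs false
set_option linter.unusedSectionVars false

namespace Cfsg.Agent.H932.Three

open QuadraticMap hiding proj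
open Cfsg.Agent.LieClassical.OrthCore Cfsg.Agent.LieClassical.OrthTrans Cfsg.Agent.H883.Root
open Cfsg.Agent Cfsg.Agent.H882.Ten

variable {F : Type*} {U : Type*} {W : Type*} {V : Type*} [Field F] [AddCommGroup U] [Module F U]
  [AddCommGroup W] [Module F W] [AddCommGroup V] [Module F V]
  {t : U →ₗ[F] W →ₗ[F] V}

/-- fixed space of `ε l` -/
def fx (l : W ≃ₗ[F] W) (ε : F) : Submodule F W := LinearMap.ker (ε • (l : W →ₗ[F] W) - LinearMap.id)

theorem mem_fx {l : W ≃ₗ[F] W} {ε : F} {w : W} : w ∈ fx l ε ↔ ε • l w = w := by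
  rw [fx, LinearMap.mem_ker, LinearMap.sub_apply, sub_eq_zero]; rfl

theorem fx_compl (h2 : (2 : F) ≠ 0) {l : W ≃ₗ[F] W} (hl : ∀ w, l (l w) = w) : IsCompl (fx l 1) (fx l (-1)) := by
  constructor
  · rw [Submodule.disjoint_def]
    intro x hx hx'
    rw [mem_fx, one_smul] at hx
    rw [mem_fx, neg_smul, one_smul, hx] at hx'
    have : (2 : F) • x = 0 := by
      rw [two_smul]
      nth_rewrite 1 [← hx']
      exact neg_add_cancel x
    exact (smul_eq_zero.1 this).resolve_left h2
  · rw [codisjoint_iff, eq_top_iff]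
    intro x _
    rw [Submodule.mem_sup]
    refine ⟨(2 : F)⁻¹ • (x + l x), ?_, (2 : F)⁻¹ • (x - l x), ?_, ?_⟩
    · rw [mem_fx, one_smul, map_smul, map_add, hl, add_comm]
    · rw [mem_fx, neg_smul, one_smul, map_smul, map_sub, hl, ← smul_neg, neg_sub]
    · rw [← smul_add]
      have : x + l x + (x - l x) = (2 : F) • x := by rw [two_smul]; abel
      rw [this, smul_smul, inv_mul_cancel₀ h2, one_smul]

/-- An involution of a three-dimensional space has a basis of eigenvectors. -/
theorem exists_eigenbasis (h2 : (2 : F) ≠ 0) (d3 : Module.finrank F U = 3) {k : U ≃ₗ[F] U}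
    (hk : ∀ u, k (k u) = u) :
    ∃ (b : Module.Basis (Fin 3) F U) (ε : Fin 3 → F), (∀ i, k (b i) = ε i • b i) ∧ ∀ i, ε i = 1 ∨ ε i = -1 := by
  have hfin : FiniteDimensional F U := Module.finite_of_finrank_pos (by omega)
  have hc := fx_compl h2 hk
  let b1 := Module.finBasis F (fx k 1)
  let b2 := Module.finBasis F (fx k (-1))
  let b0 := (b1.prod b2).map (Submodule.prodEquivOfIsCompl _ _ hc)
  have hcard := Submodule.finrank_add_eq_of_isCompl hc
  rw [d3] at hcard
  let e : (Fin (Module.finrank F (fx k 1)) ⊕ Fin (Module.finrank F (fx k (-1)))) ≃ Fin 3 :=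
    finSumFinEquiv.trans (finCongr hcard)
  let ε0 : (Fin (Module.finrank F (fx k 1)) ⊕ Fin (Module.finrank F (fx k (-1)))) → F :=
    Sum.elim (fun _ => 1) (fun _ => -1)
  have key : ∀ i, k (b0 i) = ε0 i • b0 i := by
    rintro (i | i)
    · have e1 : b0 (Sum.inl i) = (b1 i : U) := by
        simp [b0]
      have h1 := mem_fx.1 (b1 i).2
      rw [e1, ← h1, one_smul, hk]
      show _ = (1 : F) • _
      rw [one_smul]
      nth_rewrite 1 [← h1]
      rw [one_smul]
    · have e1 : b0 (Sum.inr i) = (b2 i : U) := by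
        simp [b0]
      have h1 := mem_fx.1 (b2 i).2
      rw [e1]
      show k (b2 i : U) = (-1 : F) • (b2 i : U)
      rw [neg_smul, one_smul] at h1
      rw [neg_smul, one_smul]
      exact neg_eq_iff_eq_neg.1 h1
  refine ⟨b0.reindex e, fun i => ε0 (e.symm i), fun i => ?_, fun i => ?_⟩
  · rw [Module.Basis.reindex_apply]
    exact key _
  · show ε0 (e.symm i) = 1 ∨ ε0 (e.symm i) = -1
    rcases e.symm i with j | j
    · left; rfl
    · right; rfl

/-- `v = Σ t (b i) (contraction)`. -/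
theorem sum_coord (ht : IsTensorProduct t) (b : Module.Basis (Fin 3) F U) (v : V) :
    v = ∑ i, t (b i) (cU ht (b.coord i) v) := by
  have : (LinearMap.id : V →ₗ[F] V) = ∑ i, t (b i) ∘ₗ cU ht (b.coord i) := by
    refine ext_t ht fun u w => ?_
    rw [LinearMap.id_apply, LinearMap.sum_apply]
    simp only [LinearMap.comp_apply, cU_apply, map_smul]
    conv_lhs => rw [← b.sum_repr u, map_sum, LinearMap.sum_apply]
    refine Finset.sum_congr rfl fun i _ => ?_
    rw [map_smul, LinearMap.smul_apply]; rfl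
  have h := LinearMap.congr_fun this v
  rw [LinearMap.id_apply, LinearMap.sum_apply] at h
  exact h

theorem cU_tm (ht : IsTensorProduct t) (b : Module.Basis (Fin 3) F U) {ε : Fin 3 → F} {k : U ≃ₗ[F] U}
    (hk : ∀ i, k (b i) = ε i • b i) (l : W ≃ₗ[F] W) (i : Fin 3) (v : V) :
    cU ht (b.coord i) (tm ht k l v) = ε i • l (cU ht (b.coord i) v) := by
  have hc : ∀ u, b.coord i (k u) = ε i * b.coord i u := by
    intro u
    have : (b.coord i) ∘ₗ (k : U →ₗ[F] U) = ε i • b.coord i := by
      refine b.ext fun j => ?_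
      rw [LinearMap.comp_apply, LinearEquiv.coe_coe, hk, map_smul, LinearMap.smul_apply,
        Module.Basis.coord_apply, Module.Basis.repr_self]
      by_cases h : j = i
      · subst h; rfl
      · rw [Finsupp.single_eq_of_ne (Ne.symm h)]; simp
    exact LinearMap.congr_fun this u
  have : cU ht (b.coord i) ∘ₗ (tm ht k l : V →ₗ[F] V) = ε i • ((l : W →ₗ[F] W) ∘ₗ cU ht (b.coord i)) := by
    refine ext_t ht fun u w => ?_
    rw [LinearMap.comp_apply, LinearEquiv.coe_coe, tm_apply, cU_apply, hc, LinearMap.smul_apply,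
      LinearMap.comp_apply, cU_apply, LinearEquiv.coe_coe, map_smul, smul_smul]
  exact LinearMap.congr_fun this v

/-- **The fixed space of an involution `k ⊗ l`.** -/
theorem finrank_fix (ht : IsTensorProduct t) [FiniteDimensional F W] (b : Module.Basis (Fin 3) F U)
    {ε : Fin 3 → F} {k : U ≃ₗ[F] U}
    (hk : ∀ i, k (b i) = ε i • b i) (l : W ≃ₗ[F] W) :
    Module.finrank F (LinearMap.ker ((tm ht k l : V →ₗ[F] V) - LinearMap.id)) =
      ∑ i, Module.finrank F (fx l (ε i)) := by
  have hmem : ∀ v, v ∈ LinearMap.ker ((tm ht k l : V →ₗ[F] V) - LinearMap.id) ↔ tm ht k l v = v := by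
    intro v
    rw [LinearMap.mem_ker, LinearMap.sub_apply, sub_eq_zero]; rfl
  have hsc : ∀ (w : Fin 3 → W) i, cU ht (b.coord i) (∑ j, t (b j) (w j)) = w i := by
    intro w i
    rw [map_sum, Finset.sum_eq_single i]
    · rw [cU_apply, Module.Basis.coord_apply, Module.Basis.repr_self, Finsupp.single_eq_same, one_smul]
    · intro j _ hj
      rw [cU_apply, Module.Basis.coord_apply, Module.Basis.repr_self, Finsupp.single_eq_of_ne (Ne.symm hj),
        zero_smul]
    · intro h; exact absurd (Finset.mem_univ i) h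
  let f : LinearMap.ker ((tm ht k l : V →ₗ[F] V) - LinearMap.id) →ₗ[F] (Π i, fx l (ε i)) :=
    LinearMap.pi fun i => (cU ht (b.coord i) ∘ₗ Submodule.subtype _).codRestrict (fx l (ε i)) (by
      intro v
      rw [mem_fx]
      show ε i • l (cU ht (b.coord i) (v : V)) = cU ht (b.coord i) (v : V)
      rw [← cU_tm ht b hk, (hmem _).1 v.2])
  have hf : ∀ v i, ((f v i : fx l (ε i)) : W) = cU ht (b.coord i) (v : V) := fun v i => rfl
  have hinj : Function.Injective f := by
    intro v v' h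
    apply Subtype.ext
    rw [sum_coord ht b (v : V), sum_coord ht b (v' : V)]
    refine Finset.sum_congr rfl fun i _ => ?_
    rw [← hf, ← hf, h]
  have hsurj : Function.Surjective f := by
    intro w
    refine ⟨⟨∑ j, t (b j) (w j : W), ?_⟩, ?_⟩
    · rw [hmem, map_sum]
      refine Finset.sum_congr rfl fun i _ => ?_
      rw [tm_apply, hk, map_smul, LinearMap.smul_apply, ← map_smul, mem_fx.1 (w i).2]
    · funext i
      apply Subtype.ext
      rw [hf]
      exact hsc (fun j => (w j : W)) i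
  rw [(LinearEquiv.ofBijective f ⟨hinj, hsurj⟩).finrank_eq, Module.finrank_pi_fintype]

theorem scalar_of_fix (ht : IsTensorProduct t) (h2 : (2 : F) ≠ 0) (d3 : Module.finrank F U = 3)
    (d4 : Module.finrank F W = 4) {k : U ≃ₗ[F] U} {l : W ≃ₗ[F] W} (h : ∀ v, tm ht k l (tm ht k l v) = v)
    (hd : Module.finrank F (LinearMap.ker ((tm ht k l : V →ₗ[F] V) - LinearMap.id)) = 4) :
    ∃ c : F, ∀ w, l w = c • w := by
  have hfU : FiniteDimensional F U := Module.finite_of_finrank_pos (by omega)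
  have hfW : FiniteDimensional F W := Module.finite_of_finrank_pos (by omega)
  have hnU : Nontrivial U := Module.nontrivial_of_finrank_pos (R := F) (by omega)
  have hnW : Nontrivial W := Module.nontrivial_of_finrank_pos (R := F) (by omega)
  have h1 : tm ht (k * k) (l * l) = 1 := by
    rw [tm_mul]
    ext v
    exact h v
  obtain ⟨c, hc0, hkc, hlc⟩ := scalars_of_tm_eq_one ht h1
  -- `c` is a square
  have hdet : (LinearMap.det (k : U →ₗ[F] U)) ^ 2 = c ^ 3 := by
    have e1 : (k : U →ₗ[F] U) ∘ₗ (k : U →ₗ[F] U) = c • LinearMap.id := by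
      ext u
      exact hkc u
    have e2 := congrArg LinearMap.det e1
    rw [LinearMap.det_comp, LinearMap.det_smul, LinearMap.det_id, d3, mul_one] at e2
    rw [pow_two, e2]
  set e : F := LinearMap.det (k : U →ₗ[F] U) * c⁻¹ with he
  have he2 : e * e = c := by
    rw [he]
    field_simp
    linear_combination hdet
  have he0 : e ≠ 0 := by
    intro h0
    rw [h0, mul_zero] at he2
    exact hc0 he2.symm
  set k' := k * LinearEquiv.smulOfNeZero F U e⁻¹ (inv_ne_zero he0) with hk'
  set l' := l * LinearEquiv.smulOfNeZero F W e he0 with hl'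
  have hT : tm ht k' l' = tm ht k l := tm_rescale ht k l he0
  have hkk : ∀ u, k' (k' u) = u := by
    intro u
    show k (e⁻¹ • k (e⁻¹ • u)) = u
    rw [map_smul, map_smul, map_smul]
    have : k (k u) = c • u := hkc u
    rw [this, smul_smul, smul_smul, ← he2]
    have : e⁻¹ * e⁻¹ * (e * e) = 1 := by field_simp
    rw [this, one_smul]
  have hll : ∀ w, l' (l' w) = w := by
    intro w
    show l (e • l (e • w)) = w
    rw [map_smul, map_smul, map_smul]
    have : l (l w) = c⁻¹ • w := hlc w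
    rw [this, smul_smul, smul_smul, ← he2]
    have : e * e * (e * e)⁻¹ = 1 := by field_simp
    rw [this, one_smul]
  obtain ⟨b, ε, hb, hε⟩ := exists_eigenbasis h2 d3 hkk
  rw [← hT, finrank_fix ht b hb, Fin.sum_univ_three] at hd
  have hcm := Submodule.finrank_add_eq_of_isCompl (fx_compl h2 hll)
  rw [d4] at hcm
  set j := Module.finrank F (fx l' 1) with hj
  set m := Module.finrank F (fx l' (-1)) with hm
  have hjm : j = 0 ∨ m = 0 := by
    rcases hε 0 with h0 | h0 <;> rcases hε 1 with h1 | h1 <;> rcases hε 2 with h2 | h2 <;>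
      rw [h0, h1, h2] at hd <;> simp only [← hj, ← hm] at hd <;> omega
  have htop : ∀ δ : F, Module.finrank F (fx l' δ) = 4 → ∀ w, δ • l' w = w := by
    intro δ hδ w
    have : fx l' δ = ⊤ := Submodule.eq_top_of_finrank_eq (by rw [hδ, d4])
    rw [← mem_fx, this]; trivial
  have hlw : ∀ w, l' (e⁻¹ • w) = l w := by
    intro w
    show l (e • (e⁻¹ • w)) = l w
    rw [smul_smul, mul_inv_cancel₀ he0, one_smul]
  rcases hjm with h0 | h0
  · have h3 := htop (-1) (by rw [← hm]; omega)
    refine ⟨-e⁻¹, fun w => ?_⟩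
    have h4 := h3 (e⁻¹ • w)
    rw [hlw, neg_smul, one_smul] at h4
    rw [neg_smul, ← h4, neg_neg]
  · have h3 := htop 1 (by rw [← hj]; omega)
    refine ⟨e⁻¹, fun w => ?_⟩
    have h4 := h3 (e⁻¹ • w)
    rw [hlw, one_smul] at h4
    exact h4

/-- The multiplier of a similarity of a three-dimensional space is a square. -/
theorem sq_of_sim {R : QuadraticForm F U} (hR : Nondeg R) (d3 : Module.finrank F U = 3) {k : U ≃ₗ[F] U} {ν : F}
    (hk : ∀ x y, polar R (k x) (k y) = ν * polar R x y) : ∃ e : F, ν = e * e := by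
  have hfU : FiniteDimensional F U := Module.finite_of_finrank_pos (by omega)
  let b : Module.Basis (Fin 3) F U := Module.finBasisOfFinrankEq F U d3
  let B : LinearMap.BilinForm F U := polarBilin R
  have hnd : B.Nondegenerate := Cfsg.Agent.H883.Sub.nondegenerate_of_nondeg hR
  have hG : (LinearMap.BilinForm.toMatrix b B).det ≠ 0 :=
    (LinearMap.BilinForm.nondegenerate_iff_det_ne_zero b).1 hnd
  have h1 : B.comp (k : U →ₗ[F] U) (k : U →ₗ[F] U) = ν • B := by
    ext x y
    exact hk x y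
  have h2 := congrArg (LinearMap.BilinForm.toMatrix b) h1
  rw [LinearMap.BilinForm.toMatrix_comp b b] at h2
  have h3 := congrArg Matrix.det h2
  rw [Matrix.det_mul, Matrix.det_mul, Matrix.det_transpose, map_smul, Matrix.det_smul, Fintype.card_fin] at h3
  set D := (LinearMap.toMatrix b b (k : U →ₗ[F] U)).det with hD
  have h4 : D * D = ν ^ 3 := by
    apply mul_right_cancel₀ hG
    linear_combination h3
  by_cases hν : ν = 0
  · exact ⟨0, by rw [hν, mul_zero]⟩
  · refine ⟨D * ν⁻¹, ?_⟩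
    field_simp
    linear_combination -h4

end Cfsg.Agent.H932.Three
end

-- part: H882/Good
section
/-!
# Elements fixing exactly one point

`H` a subgroup of a finite group `M`; `Gd H s`: the element `s` of `H` fixes exactly one point of `M ⧸ H`
(`g s g⁻¹ ∈ H` implies `g ∈ H`). Criteria for a subgroup `K` to be contained in `H`:

* `pgroup_le`: `K` a `p`-group containing a good `p`-element;
* `le_of_cop`: `K` normalised by a noncyclic abelian `p`-group all of whose nonidentity elements are good,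
  and `p ∤ |K ∩ H|` (generation by centralisers in coprime action);
* `le_of_isolated`: `K` normalised by a four-group of good involutions `⟨s, s'⟩` and `K ∩ H` centralises `s`
  (Glauberman's Z*-theorem);
* `top_of_pair`: `H = M` if `H` contains two nonconjugate good involutions `s`, `t` such that the centralisers
  of the involutions `t sʰ` and `t tʰ` (`h ∈ H`) are contained in `H`.
-/

set_option autoImplicit false

namespace Cfsg.Agent.H882.Good

open Subgroup

variable {M : Type*} [Group M] {H : Subgroup M}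

/-- `s ∈ H` fixes exactly one point of `M ⧸ H`. -/
def Gd (H : Subgroup M) (s : M) : Prop := s ∈ H ∧ ∀ g : M, g * s * g⁻¹ ∈ H → g ∈ H

theorem Gd.mem {s : M} (h : Gd H s) : s ∈ H := h.1

theorem Gd.mem_of_conj {s g : M} (h : Gd H s) (hg : g * s * g⁻¹ ∈ H) : g ∈ H := h.2 g hg

theorem Gd.mem_of_comm {s g : M} (h : Gd H s) (hg : g * s = s * g) : g ∈ H := by
  refine h.2 g ?_
  rw [hg, mul_inv_cancel_right]
  exact h.1

theorem Gd.mem_of_comm' {s g : M} (h : Gd H s) (hg : s * g = g * s) : g ∈ H := h.mem_of_comm hg.symm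

theorem Gd.conj {s h : M} (hs : Gd H s) (hh : h ∈ H) : Gd H (h * s * h⁻¹) := by
  refine ⟨H.mul_mem (H.mul_mem hh hs.1) (H.inv_mem hh), fun g hg => ?_⟩
  have h1 : (g * h) * s * (g * h)⁻¹ ∈ H := by
    have e : (g * h) * s * (g * h)⁻¹ = g * (h * s * h⁻¹) * g⁻¹ := by group
    rwa [e]
  have h2 := H.mul_mem (hs.2 _ h1) (H.inv_mem hh)
  rwa [mul_inv_cancel_right] at h2

/-- **Criterion for being good**: `C(s) ≤ H`, and every conjugate of `s` in `H` commutes with some good element. -/
theorem Gd.of_cent {s : M} (hs : s ∈ H) (hc : ∀ c : M, c * s = s * c → c ∈ H)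
    (ht : ∀ g : M, g * s * g⁻¹ ∈ H → ∃ d : M, Gd H d ∧ d * (g * s * g⁻¹) = (g * s * g⁻¹) * d) : Gd H s := by
  refine ⟨hs, fun g hg => ?_⟩
  obtain ⟨d, hd, hds⟩ := ht g hg
  have h1 : g⁻¹ * d * g⁻¹⁻¹ ∈ H := by
    refine hc _ ?_
    have e : g⁻¹ * d * g⁻¹⁻¹ * s = g⁻¹ * (d * (g * s * g⁻¹)) * g := by group
    rw [e, hds]
    group
  have h2 := hd.2 _ h1
  have h3 := H.inv_mem h2
  rwa [inv_inv] at h3

section

variable [Finite M]

theorem pgroup_le {p : ℕ} [hp : Fact p.Prime] {s : M} (hs : Gd H s) (hk : ∃ k : ℕ, s ^ p ^ k = 1)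
    (S : Subgroup M) (hS : IsPGroup p S) (hsS : s ∈ S) : S ≤ H := by
  intro x hx
  have h := Cfsg.Agent.H880.pgroup_fixes (p := p) H {s}
    (by rintro y hy; rw [Set.mem_singleton_iff] at hy; subst hy; exact ⟨hs.1, hk⟩)
    (by rintro y hy g hg; rw [Set.mem_singleton_iff] at hy; subst hy; exact hs.2 g hg)
    (Set.mem_singleton s) 1 S hS (by simpa using hsS) x hx
  have h2 : ((x * 1 : M) : M ⧸ H) = ((1 : M) : M ⧸ H) := h
  rw [eq_comm, QuotientGroup.eq] at h2
  simpa using h2

theorem le_of_cop {p : ℕ} [hp : Fact p.Prime] (E K : Subgroup M) [IsMulCommutative E] (hE : ¬ IsCyclic E)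
    (hEp : IsPGroup p E) (hEG : ∀ e ∈ E, e ≠ 1 → Gd H e) (hEK : ∀ e ∈ E, ∀ k ∈ K, e * k * e⁻¹ ∈ K)
    (hKH : ¬ p ∣ Nat.card (K ⊓ H : Subgroup M)) : K ≤ H := by
  classical
  have hEK' : E ≤ normalizer (K : Set M) := by
    intro e he
    rw [mem_normalizer_iff]
    intro k
    refine ⟨fun hk => hEK e he k hk, fun hk => ?_⟩
    have := hEK e⁻¹ (E.inv_mem he) _ hk
    have e2 : e⁻¹ * (e * k * e⁻¹) * e⁻¹⁻¹ = k := by group
    rwa [e2] at this
  -- a nonidentity element of E
  obtain ⟨e0, he0, he01⟩ : ∃ e ∈ E, e ≠ 1 := by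
    by_contra hcon
    push Not at hcon
    apply hE
    have : Subsingleton E := ⟨fun a b => Subtype.ext (by rw [hcon a a.2, hcon b b.2])⟩
    exact isCyclic_of_subsingleton
  set L : Subgroup M := K ⊔ E with hL
  have hKL : K ≤ L := le_sup_left
  have hEL : E ≤ L := le_sup_right
  have hKn : (K.subgroupOf L).Normal := by
    have : L ≤ normalizer (K : Set M) := sup_le le_normalizer hEK'
    exact normal_subgroupOf_of_le_normalizer this
  have hEp' : IsPGroup p (E.subgroupOf L) := by
    exact hEp.comap_of_injective L.subtype L.subtype_injective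
  obtain ⟨P, hP⟩ := hEp'.exists_le_sylow
  have hPH : (P : Subgroup L).map L.subtype ≤ H := by
    refine pgroup_le (p := p) (hEG e0 he0 he01) ?_ _ (P.isPGroup'.map _) ?_
    · obtain ⟨k, hk⟩ := hEp ⟨e0, he0⟩
      exact ⟨k, by simpa using congrArg Subtype.val hk⟩
    · exact ⟨⟨e0, hEL he0⟩, hP he0, rfl⟩
  have hnK : ¬ p ∣ Nat.card K := by
    intro hdvd
    have h1 := Cfsg.Agent.Lib.SylowNormalInf.not_dvd_relIndex P (K.subgroupOf L)
    have h2 := Cfsg.Agent.Lib.SylowNormalInf.card_inf_mul_relIndex (P : Subgroup L) (K.subgroupOf L)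
    have h3 : Nat.card (K.subgroupOf L) = Nat.card K := Nat.card_congr (subgroupOfEquivOfLe hKL).toEquiv
    rw [h3] at h2
    rw [← h2] at hdvd
    have h4 := (hp.out.dvd_mul.1 hdvd).resolve_right h1
    have h5 : Nat.card ((P : Subgroup L) ⊓ K.subgroupOf L : Subgroup L) =
        Nat.card (((P : Subgroup L) ⊓ K.subgroupOf L : Subgroup L).map L.subtype) :=
      (card_map_of_injective L.subtype_injective).symm
    have h6 : ((P : Subgroup L) ⊓ K.subgroupOf L : Subgroup L).map L.subtype ≤ K ⊓ H := by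
      rintro _ ⟨x, ⟨hx1, hx2⟩, rfl⟩
      exact ⟨hx2, hPH ⟨x, hx1, rfl⟩⟩
    rw [h5] at h4
    exact hKH (h4.trans (card_dvd_of_le h6))
  obtain ⟨n, hn⟩ := IsPGroup.iff_card.1 hEp
  have hcop : (Nat.card E).Coprime (Nat.card K) := by
    rw [hn]
    exact Nat.Coprime.pow_left n ((Nat.Prime.coprime_iff_not_dvd hp.out).2 hnK)
  have h := Cfsg.Agent.S0058.result E K hE hEK' hcop
  rw [← h]
  refine iSup₂_le fun a ha => ?_
  intro x hx
  exact (hEG a ha.1 ha.2).mem_of_comm' (mem_centralizer_iff.1 hx.2 a rfl)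

/-- **Z*-criterion.** -/
theorem le_of_isolated (s s' : M) (hs2 : s * s = 1) (hs'2 : s' * s' = 1) (hs1 : s ≠ 1)
    (hc : s * s' = s' * s) (hs : Gd H s) (hs' : Gd H s') (hss' : Gd H (s * s'))
    (K : Subgroup M) (hsK : ∀ k ∈ K, s * k * s⁻¹ ∈ K) (hs'K : ∀ k ∈ K, s' * k * s'⁻¹ ∈ K)
    (hcent : ∀ x ∈ K, x ∈ H → x * s = s * x) : K ≤ H := by
  classical
  have hp : Fact (Nat.Prime 2) := ⟨Nat.prime_two⟩
  have hsi : s⁻¹ = s := inv_eq_of_mul_eq_one_left hs2
  have hs'i : s'⁻¹ = s' := inv_eq_of_mul_eq_one_left hs'2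
  set L : Subgroup M := K ⊔ zpowers s with hL
  have hKL : K ≤ L := le_sup_left
  have hsL : s ∈ L := (le_sup_right : zpowers s ≤ L) (mem_zpowers s)
  -- elements of L
  have hLmem : ∀ x ∈ L, x ∈ K ∨ x * s ∈ K := by
    intro x hx
    let L' : Subgroup M :=
      { carrier := {x | x ∈ K ∨ x * s ∈ K}
        one_mem' := Or.inl K.one_mem
        mul_mem' := by
          rintro a b ha hb
          rcases ha with ha | ha <;> rcases hb with hb | hb
          · exact Or.inl (K.mul_mem ha hb)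
          · refine Or.inr ?_
            have e : a * b * s = a * (b * s) := by group
            show a * b * s ∈ K
            rw [e]; exact K.mul_mem ha hb
          · refine Or.inr ?_
            show a * b * s ∈ K
            have e : a * b * s = (a * s) * (s * b * s⁻¹) := by
              calc a * b * s = a * (s * s) * b * s := by rw [hs2, mul_one]
                _ = (a * s) * (s * b * s) := by group
                _ = (a * s) * (s * b * s⁻¹) := by rw [hsi]
            rw [e]; exact K.mul_mem ha (hsK b hb)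
          · refine Or.inl ?_
            show a * b ∈ K
            have e : a * b = (a * s) * (s * (b * s) * s⁻¹) := by
              calc a * b = a * (s * s) * b * (s * s) := by rw [hs2]; group
                _ = (a * s) * (s * (b * s) * s) := by group
                _ = (a * s) * (s * (b * s) * s⁻¹) := by rw [hsi]
            rw [e]; exact K.mul_mem ha (hsK _ hb)
        inv_mem' := by
          rintro a ha
          rcases ha with ha | ha
          · exact Or.inl (K.inv_mem ha)
          · refine Or.inr ?_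
            show a⁻¹ * s ∈ K
            have e : a⁻¹ * s = s * (a * s)⁻¹ * s⁻¹ := by
              calc a⁻¹ * s = (s * s) * a⁻¹ * s := by rw [hs2, one_mul]
                _ = s * (s * a⁻¹) * s := by group
                _ = s * (s⁻¹ * a⁻¹) * s⁻¹ := by rw [hsi]
                _ = s * (a * s)⁻¹ * s⁻¹ := by rw [mul_inv_rev]
            rw [e]; exact hsK _ (K.inv_mem ha) }
    have hLL' : L ≤ L' := by
      refine sup_le (fun x hx => Or.inl hx) ?_
      rw [zpowers_le]
      exact Or.inr (by rw [hs2]; exact K.one_mem)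
    exact hLL' hx
  -- s' normalises L
  have hs'L : ∀ x ∈ L, s' * x * s'⁻¹ ∈ L := by
    intro x hx
    rcases hLmem x hx with h | h
    · exact hKL (hs'K x h)
    · have e : s' * x * s'⁻¹ = (s' * (x * s) * s'⁻¹) * s⁻¹ := by
        have e1 : s' * s * s'⁻¹ = s := by rw [← hc, mul_inv_cancel_right]
        calc s' * x * s'⁻¹ = s' * (x * s) * s⁻¹ * s'⁻¹ := by group
          _ = (s' * (x * s) * s'⁻¹) * (s' * s * s'⁻¹)⁻¹ := by group
          _ = _ := by rw [e1]
      rw [e]
      exact L.mul_mem (hKL (hs'K _ h)) (L.inv_mem hsL)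
  -- Sylow 2-subgroup of L
  have hz : orderOf s = 2 := orderOf_eq_prime (by rw [pow_two, hs2]) hs1
  have hzL : orderOf (⟨s, hsL⟩ : L) = 2 := by rw [← hz, ← Subgroup.orderOf_coe]
  have hpz : IsPGroup 2 (zpowers (⟨s, hsL⟩ : L)) := by
    rw [IsPGroup.iff_card]
    exact ⟨1, by rw [Nat.card_zpowers, hzL, pow_one]⟩
  obtain ⟨P, hP⟩ := hpz.exists_le_sylow
  have hsP : (⟨s, hsL⟩ : L) ∈ P := hP (mem_zpowers _)
  have hPH : (P : Subgroup L).map L.subtype ≤ H :=
    pgroup_le (p := 2) hs ⟨1, by rw [pow_one, pow_two, hs2]⟩ _ (P.isPGroup'.map _) ⟨_, hsP, rfl⟩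
  obtain ⟨N, hN, hodd, hcomm⟩ := Cfsg.Agent.S0215.result P (⟨s, hsL⟩ : L) hzL hsP (by
    intro g hg
    have h1 : (g : M) * s * (g : M)⁻¹ ∈ H := hPH ⟨_, hg, rfl⟩
    have h2 : (g : M) ∈ H := hs.2 _ h1
    apply Subtype.ext
    show (g : M) * s * (g : M)⁻¹ = s
    rcases hLmem g g.2 with h | h
    · rw [hcent _ h h2, mul_inv_cancel_right]
    · have h3 := hcent _ h (H.mul_mem h2 hs.1)
      have h4 : (g : M) * s = s * g := by
        have := mul_right_cancel (b := s) (by rw [h3]; group : (g : M) * s * s = (s * g) * s)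
        exact this
      rw [h4, mul_inv_cancel_right])
  -- the odd core of L
  set O : Subgroup M := (pPrimeCore 2 L).map L.subtype with hO
  have hNO : ∀ x : L, x ∈ N → (x : M) ∈ O := by
    intro x hx
    exact ⟨x, Cfsg.Agent.Lib.Cores.le_pPrimeCore hN (Nat.coprime_two_right.2 hodd) hx, rfl⟩
  have hOodd : Odd (Nat.card O) := by
    rw [hO, card_map_of_injective L.subtype_injective]
    have := Cfsg.Agent.Lib.Cores.pPrimeCore_coprime (G := L) 2
    rwa [Nat.coprime_two_right] at this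
  have hOn : (pPrimeCore 2 L).Normal := Cfsg.Agent.Lib.Cores.pPrimeCore_normal 2
  have hOc : (pPrimeCore 2 L).Characteristic := Cfsg.Agent.Lib.Cores.pPrimeCore_characteristic 2
  have hsO : ∀ x ∈ O, s * x * s⁻¹ ∈ O := by
    rintro _ ⟨x, hx, rfl⟩
    exact ⟨⟨s, hsL⟩ * x * ⟨s, hsL⟩⁻¹, hOn.conj_mem x hx _, rfl⟩
  have hs'O : ∀ x ∈ O, s' * x * s'⁻¹ ∈ O := by
    rintro _ ⟨x, hx, rfl⟩
    -- the automorphism of L induced by s'
    let f : L →* L :=
      { toFun := fun y => ⟨s' * y * s'⁻¹, hs'L y y.2⟩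
        map_one' := Subtype.ext (by simp)
        map_mul' := fun a b => Subtype.ext (by
          show s' * ((a : M) * b) * s'⁻¹ = (s' * a * s'⁻¹) * (s' * b * s'⁻¹)
          group) }
    have hff : ∀ y, f (f y) = y := by
      intro y
      apply Subtype.ext
      show s' * (s' * (y : M) * s'⁻¹) * s'⁻¹ = y
      calc s' * (s' * (y : M) * s'⁻¹) * s'⁻¹ = (s' * s') * y * (s' * s')⁻¹ := by group
        _ = y := by rw [hs'2]; group
    let F : L ≃* L := ⟨⟨f, f, hff, hff⟩, f.map_mul⟩
    have hfx : F x ∈ pPrimeCore 2 L := by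
      have h1 := hOc.fixed F
      have h2 : x ∈ (pPrimeCore 2 L).comap F.toMonoidHom := by rw [h1]; exact hx
      exact h2
    exact ⟨F x, hfx, rfl⟩
  have hOH : O ≤ H := by
    refine Cfsg.Agent.Lib.KleinGen.le_of_klein O H hOodd s s' hs2 hs'2 hc hsO hs'O ?_ ?_ ?_
    · intro x hx
      exact hs.mem_of_comm' (mem_centralizer_iff.1 hx.2 s rfl)
    · intro x hx
      exact hs'.mem_of_comm' (mem_centralizer_iff.1 hx.2 s' rfl)
    · intro x hx
      exact hss'.mem_of_comm' (mem_centralizer_iff.1 hx.2 _ rfl)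
  intro x hx
  have h1 := hOH (hNO _ (hcomm ⟨x, hKL hx⟩))
  have h2 : s * x * s⁻¹ * x⁻¹ ∈ H := h1
  refine hs.2 x ?_
  have h3 := H.mul_mem (H.inv_mem hs.1) h2
  have h4 : s⁻¹ * (s * x * s⁻¹ * x⁻¹) = x * s * x⁻¹ := by rw [hsi]; rw [← mul_assoc, ← mul_assoc, ← mul_assoc, hs2, one_mul]
  rwa [h4] at h3

end

section pair

variable [Finite M]

/-- **Two classes of good involutions.** -/
theorem top_of_pair (s t : M) (hs2 : s * s = 1) (ht2 : t * t = 1) (hs : Gd H s) (ht : Gd H t)
    (hnc : ∀ g : M, g * s * g⁻¹ ≠ t)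
    (h1 : ∀ h ∈ H, ∀ j, j = t * (h * s * h⁻¹) → j * j = 1 → j ≠ 1 → ∀ c, c * j = j * c → c ∈ H)
    (h2 : ∀ h ∈ H, ∀ j, j = t * (h * t * h⁻¹) → j * j = 1 → j ≠ 1 → ∀ c, c * j = j * c → c ∈ H)
    (g : M) : g ∈ H := by
  by_contra hg
  set x : M := g * s * g⁻¹ with hx
  have hx2 : x * x = 1 := by
    calc x * x = g * (s * s) * g⁻¹ := by rw [hx]; group
      _ = 1 := by rw [hs2]; group
  have hxH : x ∉ H := fun h => hg (hs.2 g h)
  set y : M := t * x with hy
  have hti : t⁻¹ = t := inv_eq_of_mul_eq_one_left ht2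
  have hxi : x⁻¹ = x := inv_eq_of_mul_eq_one_left hx2
  have hty : t * y * t = y⁻¹ := by
    rw [hy, mul_inv_rev, hxi, hti, ← mul_assoc, ht2, one_mul]
  have htyn : ∀ n : ℕ, t * y ^ n * t = (y ^ n)⁻¹ := by
    intro n
    induction n with
    | zero => simp [ht2]
    | succ n ih =>
      calc t * y ^ (n + 1) * t = (t * y ^ n * t) * (t * y * t) := by
            rw [pow_succ]
            calc t * (y ^ n * y) * t = t * y ^ n * 1 * y * t := by group
              _ = t * y ^ n * (t * t) * y * t := by rw [ht2]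
              _ = _ := by group
        _ = (y ^ n)⁻¹ * y⁻¹ := by rw [ih, hty]
        _ = (y ^ (n + 1))⁻¹ := by rw [pow_succ']; exact (_root_.mul_inv_rev y (y ^ n)).symm
  have hyn : ∀ n : ℕ, y ^ n * t = t * (y ^ n)⁻¹ := by
    intro n
    rw [← htyn n, ← mul_assoc, ← mul_assoc, ht2, one_mul]
  -- `y^n t y^{-n} = y^{2n} t`
  have hconj : ∀ n : ℕ, y ^ n * t * (y ^ n)⁻¹ = y ^ (n + n) * t := by
    intro n
    have e : t * (y ^ n)⁻¹ = y ^ n * t := (hyn n).symm
    calc y ^ n * t * (y ^ n)⁻¹ = y ^ n * (t * (y ^ n)⁻¹) := by group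
      _ = y ^ n * (y ^ n * t) := by rw [e]
      _ = y ^ (n + n) * t := by rw [pow_add]; group
  rcases Nat.even_or_odd (orderOf y) with heven | hodd
  · obtain ⟨m, hm⟩ := heven
    have hpos : 0 < orderOf y := orderOf_pos y
    set z : M := y ^ m with hz
    have hz2 : z * z = 1 := by rw [hz, ← pow_add, ← hm, pow_orderOf_eq_one]
    have hz1 : z ≠ 1 := by
      intro h
      have := orderOf_dvd_of_pow_eq_one (x := y) (n := m) (by rw [← hz, h])
      have := Nat.le_of_dvd (by omega) this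
      omega
    have hzi : z⁻¹ = z := inv_eq_of_mul_eq_one_left hz2
    have htz : z * t = t * z := by
      have := hyn m
      rw [← hz, hzi] at this
      exact this
    have hzH : z ∈ H := ht.mem_of_comm htz
    have hyz : y * z = z * y := by rw [hz]; exact (pow_succ' y m).symm.trans (pow_succ y m)
    have hxz : x * z = z * x := by
      have e : x = t * y := by rw [hy, ← mul_assoc, ht2, one_mul]
      rw [e, mul_assoc, hyz, ← mul_assoc, ← htz, mul_assoc]
    have htzH : t * z ∈ H := H.mul_mem ht.1 hzH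
    have hzt : z = t * (t * z) := by rw [← mul_assoc, ht2, one_mul]
    rcases Nat.even_or_odd m with ⟨i, hi⟩ | ⟨i, hi⟩
    · -- `t z = d t d⁻¹` with `d = y^{-i}`
      have e : t * z = (y ^ i)⁻¹ * t * (y ^ i)⁻¹⁻¹ := by
        rw [inv_inv]
        have e1 : (y ^ i)⁻¹ * t = t * y ^ i := by
          have := hyn i
          calc (y ^ i)⁻¹ * t = (y ^ i)⁻¹ * (t * ((y ^ i)⁻¹ * y ^ i)) := by group
            _ = (y ^ i)⁻¹ * (t * (y ^ i)⁻¹) * y ^ i := by group
            _ = (y ^ i)⁻¹ * (y ^ i * t) * y ^ i := by rw [this]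
            _ = t * y ^ i := by group
        rw [e1, mul_assoc, ← pow_add, ← hi, hz]
      have hd : (y ^ i)⁻¹ ∈ H := ht.2 _ (by rw [← e]; exact htzH)
      refine hxH (h2 _ hd z ?_ hz2 hz1 x hxz)
      rw [← e]
      exact hzt
    · -- `t z = d x d⁻¹`
      have e : t * z = (y ^ i)⁻¹ * x * (y ^ i)⁻¹⁻¹ := by
        rw [inv_inv]
        have e0 : (y ^ i)⁻¹ * t = t * y ^ i := by
          have := hyn i
          calc (y ^ i)⁻¹ * t = (y ^ i)⁻¹ * (t * ((y ^ i)⁻¹ * y ^ i)) := by group
            _ = (y ^ i)⁻¹ * (t * (y ^ i)⁻¹) * y ^ i := by group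
            _ = (y ^ i)⁻¹ * (y ^ i * t) * y ^ i := by rw [this]
            _ = t * y ^ i := by group
        have ex : x = t * y := by rw [hy, ← mul_assoc, ht2, one_mul]
        rw [ex, ← mul_assoc, e0, hz, hi]
        have : 2 * i + 1 = i + 1 + i := by omega
        rw [this, pow_add, pow_add, pow_one]
        group
      have e2 : t * z = ((y ^ i)⁻¹ * g) * s * ((y ^ i)⁻¹ * g)⁻¹ := by
        rw [e, hx]; group
      have hd : (y ^ i)⁻¹ * g ∈ H := hs.2 _ (by rw [← e2]; exact htzH)
      refine hxH (h1 _ hd z ?_ hz2 hz1 x hxz)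
      rw [← e2]
      exact hzt
  · obtain ⟨m, hm⟩ := hodd
    -- `y^m t y^{-m} = y^{2m} t = y⁻¹ t = x`
    have e : y ^ m * t * (y ^ m)⁻¹ = x := by
      rw [hconj]
      have e1 : y ^ (m + m) = y⁻¹ := by
        rw [eq_inv_iff_mul_eq_one, ← pow_succ]
        have : m + m + 1 = orderOf y := by omega
        rw [this, pow_orderOf_eq_one]
      rw [e1, hy, mul_inv_rev, hxi, hti, mul_assoc, ht2, mul_one]
    refine hnc ((y ^ m)⁻¹ * g) ?_
    calc (y ^ m)⁻¹ * g * s * ((y ^ m)⁻¹ * g)⁻¹ = (y ^ m)⁻¹ * (g * s * g⁻¹) * y ^ m := by group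
      _ = (y ^ m)⁻¹ * (y ^ m * t * (y ^ m)⁻¹) * y ^ m := by rw [← hx, e]
      _ = t := by group

end pair

end Cfsg.Agent.H882.Good
end

-- part: H932/ThreeInv
section
/-!
`O₃ ⊗ O₄⁻` in `Ω₁₂⁻(q)`, `q ≥ 5` odd: good elements and the end of the proof that a proper overgroup of the
tensor group is contained in the tensor group.
-/

set_option autoImplicit false
set_option linter.unusedSimpArgs false
set_option linter.unusedSectionVars false

namespace Cfsg.Agent.H932.Three

open QuadraticMap hiding proj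
open Cfsg.Agent.LieClassical.OrthCore Cfsg.Agent.LieClassical.OrthTrans Cfsg.Agent.H883.Root
open Cfsg.Agent Cfsg.Agent.H882.Ten Cfsg.Agent.H882.Good

variable {F : Type*} {U : Type*} {W : Type*} {V : Type*} [Field F] [AddCommGroup U] [Module F U]
  [AddCommGroup W] [Module F W] [AddCommGroup V] [Module F V]
  {t : U →ₗ[F] W →ₗ[F] V} {QU : QuadraticForm F U} {QW : QuadraticForm F W} {Q : QuadraticForm F V}
  {X : Subgroup (V ≃ₗ[F] V)} {S : TSt t QU QW Q}

section three

/-- Two orthogonal nonsingular vectors are members of an orthogonal triple. -/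
theorem exists_OB2 {R : QuadraticForm F U} (hQ : Nondeg R) (h2 : (2 : F) ≠ 0) (d3 : 3 ≤ Module.finrank F U)
    {a b : U} (ha : R a ≠ 0) (hb : R b ≠ 0) (hab : polar R a b = 0) : ∃ c, OB R a b c := by
  obtain ⟨c, hc, hac⟩ := exists_nonsing_of_perp hQ h2 ![a, b] (by
      intro i; fin_cases i
      · exact ha
      · exact hb)
    (by
      intro i j hij
      fin_cases i <;> fin_cases j
      · exact absurd rfl hij
      · exact hab
      · show polar R b a = 0
        rw [polar_comm]; exact hab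
      · exact absurd rfl hij) (by omega)
  exact ⟨c, ha, hb, hc, hab, hac 0, hac 1⟩

/-- A `p`-element of `O₃(q)` fixing a nonsingular vector is trivial. -/
theorem eq_one_of_fix [Finite F] {R : QuadraticForm F U} (hR : Nondeg R) (h2 : (2 : F) ≠ 0)
    (d3 : Module.finrank F U = 3) {p : ℕ} [hp : Fact p.Prime] [CharP F p] {k : U ≃ₗ[F] U} (hk : k ∈ O R)
    (hkp : k ^ p = 1) {a : U} (ha : R a ≠ 0) (hka : k a = a) : k = 1 := by
  have hfU : FiniteDimensional F U := Module.finite_of_finrank_pos (by omega)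
  have hnU : Nontrivial U := Module.nontrivial_of_finrank_pos (R := F) (by omega)
  set N : Module.End F U := (k : U →ₗ[F] U) - 1 with hN
  have hNa : ∀ u, N u = k u - u := fun u => rfl
  have hNp : N ^ p = 0 := (pow_eq_one_iff k).1 hkp
  let P : Submodule F U := LinearMap.ker (polarBilin R a)
  have hP : ∀ u, u ∈ P ↔ polar R a u = 0 := fun u => LinearMap.mem_ker
  have hNP : ∀ u, N u ∈ P := by
    intro u
    rw [hP, hNa, polar_sub_right]
    nth_rewrite 1 [← hka]
    rw [polar_map hk, sub_self]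
  have hPd : Module.finrank F P = 2 := by
    have h1 := LinearMap.finrank_range_add_finrank_ker (polarBilin R a)
    have h3 : LinearMap.range (polarBilin R a) = ⊤ := by
      rw [LinearMap.range_eq_top]
      intro c
      refine ⟨((2 * R a)⁻¹ * c) • a, ?_⟩
      show polar R a (((2 * R a)⁻¹ * c) • a) = c
      rw [polar_smul_right, polar_self', smul_eq_mul]
      have : 2 * R a ≠ 0 := mul_ne_zero h2 ha
      field_simp
    rw [h3, finrank_top, Module.finrank_self, d3] at h1
    show Module.finrank F (LinearMap.ker (polarBilin R a)) = 2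
    omega
  let N' : Module.End F P := N.restrict fun x _ => hNP x
  have hN' : ∀ x : P, ((N' x : P) : U) = N (x : U) := fun x => rfl
  have hNn : ∀ (n : ℕ) (x : P), (((N' ^ n) x : P) : U) = (N ^ n) (x : U) := by
    intro n
    induction n with
    | zero => intro x; rfl
    | succ n ih =>
      intro x
      rw [pow_succ', pow_succ']
      show ((N' ((N' ^ n) x) : P) : U) = N ((N ^ n) (x : U))
      rw [hN', ih]
  have hN2 : ∀ x ∈ P, N (N x) = 0 := by
    intro x hx
    have h3 := Module.End.ker_pow_le_ker_pow_finrank N' p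
    have h4 : (⟨x, hx⟩ : P) ∈ LinearMap.ker (N' ^ 2) := by
      rw [← hPd]
      apply h3
      rw [LinearMap.mem_ker]
      apply Subtype.ext
      rw [hNn, hNp]
      rfl
    rw [LinearMap.mem_ker] at h4
    have h5 := congrArg Subtype.val h4
    rw [hNn, pow_two] at h5
    exact h5
  have hall : ∀ u, N (N u) = 0 := by
    intro u
    have e : u = ((2 * R a)⁻¹ * polar R a u) • a + (u - ((2 * R a)⁻¹ * polar R a u) • a) := by abel
    have hNa0 : N a = 0 := by rw [hNa, hka, sub_self]
    have h6 : u - ((2 * R a)⁻¹ * polar R a u) • a ∈ P := by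
      rw [hP, polar_sub_right, polar_smul_right, polar_self', smul_eq_mul]
      have : 2 * R a ≠ 0 := mul_ne_zero h2 ha
      field_simp
      ring
    rw [e, map_add, map_smul, hNa0, smul_zero, zero_add]
    exact hN2 _ h6
  exact eq_one_of_sq h2 hR (fun u v hu hv huv hu0 => iso_three d3 hR hu hv huv hu0) hk fun x => hall x

theorem fixed_kk (S : TSt t QU QW Q) {a : U} (ha : QU a ≠ 0) {v : V} (hv : rU S.ten (kk QU a ha) v = v) :
    v = t a ((2 * QU a)⁻¹ • S.cu a v) := by
  have key : (rU S.ten (kk QU a ha) : V →ₗ[F] V) + LinearMap.id = (QU a)⁻¹ • (t a ∘ₗ S.cu a) := by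
    refine ext_t S.ten fun u w => ?_
    simp only [LinearMap.add_apply, LinearMap.smul_apply, LinearMap.comp_apply, LinearMap.id_apply,
      LinearEquiv.coe_coe, rU_apply, S.cu_t, kk_apply, map_sub, map_smul, LinearMap.sub_apply, LinearMap.smul_apply,
      sub_add_cancel, smul_smul]
  have h1 := LinearMap.congr_fun key v
  have h3 : rU S.ten (kk QU a ha) v + v = (QU a)⁻¹ • t a (S.cu a v) := h1
  rw [hv, ← two_smul F] at h3
  rw [map_smul, mul_inv, ← smul_smul, ← h3, smul_smul, inv_mul_cancel₀ S.two, one_smul]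

theorem t_kk (S : TSt t QU QW Q) {a : U} (ha : QU a ≠ 0) (w : W) :
    rU S.ten (kk QU a ha) (t a w) = t a w := by
  rw [rU_apply, kk_self]

/-- A vector fixed by `k_a` is a multiple of `a`. -/
theorem smul_of_kk {R : QuadraticForm F U} (h2 : (2 : F) ≠ 0) {a x : U} (ha : R a ≠ 0) (h : kk R a ha x = x) :
    x = ((2 * R a)⁻¹ * polar R a x) • a := by
  rw [kk_apply, sub_eq_iff_eq_add, ← two_smul F] at h
  rw [mul_inv, mul_assoc, ← smul_smul, h, smul_smul, inv_mul_cancel₀ h2, one_smul]

theorem kk_smul {R : QuadraticForm F U} {a b : U} (ha : R a ≠ 0) (hb : R b ≠ 0) {c : F} (h : b = c • a) :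
    kk R b hb = kk R a ha := by
  have hc : c ≠ 0 := by
    rintro rfl
    rw [zero_smul] at h
    exact hb (by rw [h, QuadraticMap.map_zero])
  ext x
  rw [kk_apply, kk_apply, h, QuadraticMap.map_smul, polar_smul_left, smul_smul, smul_eq_mul, smul_eq_mul]
  congr 2
  field_simp

/-- Products of two commuting `k_a` -/
theorem kk_mul_kk {R : QuadraticForm F U} (hR : Nondeg R) (h2 : (2 : F) ≠ 0) (d3 : Module.finrank F U = 3)
    {a b : U} (ha : R a ≠ 0) (hb : R b ≠ 0)
    (h1 : (kk R a ha * kk R b hb) * (kk R a ha * kk R b hb) = 1) (h3 : kk R a ha * kk R b hb ≠ 1) :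
    ∃ (c : U) (hc : R c ≠ 0), kk R a ha * kk R b hb = kk R c hc := by
  have hab : ∀ x, kk R a ha (kk R b hb x) = kk R b hb (kk R a ha x) := by
    intro x
    have h4 := LinearEquiv.congr_fun h1 (kk R b hb (kk R a ha x))
    have h5 : kk R a ha (kk R b hb (kk R a ha (kk R b hb (kk R b hb (kk R a ha x))))) =
      kk R b hb (kk R a ha x) := h4
    rw [kk_kk, kk_kk] at h5
    exact h5
  have hfix : kk R a ha (kk R b hb a) = kk R b hb a := by rw [hab, kk_self]
  have h6 := smul_of_kk h2 ha hfix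
  set e := (2 * R a)⁻¹ * polar R a (kk R b hb a) with he
  have h7 : R (kk R b hb a) = R a := kk_mem_O hb a
  rw [h6, QuadraticMap.map_smul, smul_eq_mul] at h7
  have h8 : e * e = 1 := by
    apply mul_right_cancel₀ ha
    rw [h7, one_mul]
  have hcase : e = 1 ∨ e = -1 := mul_self_eq_one_iff.1 h8
  rcases hcase with h | h
  · exfalso
    rw [h, one_smul] at h6
    have h9 := smul_of_kk h2 hb h6
    apply h3
    rw [kk_smul hb ha h9, kk_mul_self]
  · rw [h, neg_smul, one_smul] at h6
    have h9 : polar R b a = 0 := by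
      rw [kk_apply, sub_eq_neg_self] at h6
      have hb0 : b ≠ 0 := by
        rintro rfl
        exact hb (QuadraticMap.map_zero R)
      have := (smul_eq_zero.1 h6).resolve_right hb0
      exact (mul_eq_zero.1 this).resolve_left (inv_ne_zero hb)
    have h9' : polar R a b = 0 := by rw [polar_comm]; exact h9
    obtain ⟨c, hc⟩ := exists_OB2 hR h2 (by omega) ha hb h9'
    refine ⟨c, hc.nc, ?_⟩
    apply LinearEquiv.toLinearMap_injective
    ext x
    refine hc.lext h2 d3 (f := ((kk R a ha * kk R b hb : U ≃ₗ[F] U) : U →ₗ[F] U))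
      (g := (kk R c hc.nc : U →ₗ[F] U)) ?_ ?_ ?_ x
    · show kk R a ha (kk R b hb a) = kk R c hc.nc a
      rw [kk_perp hb h9, map_neg, kk_self, kk_perp hc.nc hc.ca]
    · show kk R a ha (kk R b hb b) = kk R c hc.nc b
      rw [kk_self, kk_perp ha h9', kk_perp hc.nc hc.cb]
    · show kk R a ha (kk R b hb c) = kk R c hc.nc c
      rw [kk_perp hb hc.bc, map_neg, kk_perp ha hc.ac, neg_neg, kk_self]

/-- conjugation of `k_a` by a similarity -/
theorem sim_kk {R : QuadraticForm F U} (h2 : (2 : F) ≠ 0) {k : U ≃ₗ[F] U} {ν : F} (hν : ν ≠ 0)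
    (hk : ∀ x y, polar R (k x) (k y) = ν * polar R x y) {a : U} (ha : R a ≠ 0) :
    ∃ h : R (k a) ≠ 0, k * kk R a ha * k⁻¹ = kk R (k a) h := by
  have h1 : R (k a) = ν * R a := by
    rw [Q_eq_half h2, Q_eq_half h2 a, hk]; ring
  have h3 : R (k a) ≠ 0 := by rw [h1]; exact mul_ne_zero hν ha
  refine ⟨h3, ?_⟩
  ext x
  obtain ⟨y, rfl⟩ := k.surjective x
  show k (kk R a ha (k⁻¹ (k y))) = _
  have h4 : k⁻¹ (k y) = y := LinearEquiv.symm_apply_apply k y
  rw [h4, kk_apply, kk_apply, map_sub, map_smul, hk, h1]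
  congr 2
  field_simp

end three

/-- The tensor group in `X`. -/
def HH (S : TSt t QU QW Q) (X : Subgroup (V ≃ₗ[F] V)) : Subgroup X := (TT t S.ten).subgroupOf X

theorem mem_HH {g : X} : g ∈ HH S X ↔ (g : V ≃ₗ[F] V) ∈ TT t S.ten := Subgroup.mem_subgroupOf

namespace Ov3

variable (hX : Ov3 S X)

include hX

theorem finX : Finite X := by
  have := hX.fin
  have := hX.finV
  have : Finite V := Module.finite_of_finite F
  have hfin : Finite (V ≃ₗ[F] V) :=
    Finite.of_injective (fun g : V ≃ₗ[F] V => (g : V → V)) DFunLike.coe_injective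
  infer_instance

theorem rWs_mem {s w : W} (hs : QW s = 0) (hw : polar QW s w = 0) : rW S.ten (siegel QW s w hs hw) ∈ X :=
  hX.rW _ (siegel_mem_E _ _)

theorem gd_siegel (hne : ¬ E Q ≤ X) {s w : W} (hs : QW s = 0) (hs0 : s ≠ 0) (hw : polar QW s w = 0)
    (hwn : QW w ≠ 0) : Gd (HH S X) (⟨rW S.ten (siegel QW s w hs hw), hX.rWs_mem hs hw⟩ : X) := by
  refine ⟨mem_HH.2 (tm_mem_TT _ _ _), fun g hg => mem_HH.2 ?_⟩
  exact hX.ti hne hs hs0 hw hwn g.2 (mem_HH.1 hg)

end Ov3

theorem siegel_congr {R : QuadraticForm F W} {s w w' : W} (hs : R s = 0) (hw : polar R s w = 0)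
    (hw' : polar R s w' = 0) (h : w = w') : siegel R s w hs hw = siegel R s w' hs hw' := by
  subst h; rfl

theorem siegel_zero' {R : QuadraticForm F W} {s : W} (hs : R s = 0) (h0 : polar R s 0 = 0) :
    siegel R s 0 hs h0 = 1 := by
  ext v
  rw [siegel_apply, polar_zero_left, QuadraticMap.map_zero]
  simp

theorem siegel_pow {R : QuadraticForm F W} {s w : W} (hs : R s = 0) (hw : polar R s w = 0) (n : ℕ)
    (hn : polar R s (n • w) = 0) : siegel R s w hs hw ^ n = siegel R s (n • w) hs hn := by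
  induction n with
  | zero =>
    have h0 : polar R s 0 = 0 := polar_zero_right _ _
    rw [pow_zero, siegel_congr hs hn h0 (zero_smul ℕ w), siegel_zero']
  | succ n ih =>
    have hn' : polar R s (n • w) = 0 := by
      rw [← Nat.cast_smul_eq_nsmul F, polar_smul_right, hw, smul_zero]
    have h3 : polar R s (n • w + w) = 0 := by rw [polar_add_right, hn', hw, add_zero]
    rw [pow_succ, ih hn', siegel_mul hs hn' hw h3]
    exact siegel_congr hs _ _ (succ_nsmul w n).symm

theorem siegel_inv' {R : QuadraticForm F W} {s w : W} (hs : R s = 0) (hw : polar R s w = 0)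
    (hw' : polar R s (-w) = 0) : (siegel R s w hs hw)⁻¹ = siegel R s (-w) hs hw' := by
  have h0 : polar R s 0 = 0 := polar_zero_right _ _
  have h1 : polar R s (-w + w) = 0 := by rw [neg_add_cancel]; exact h0
  rw [inv_eq_iff_mul_eq_one, siegel_mul hs hw hw' (by rw [add_neg_cancel]; exact h0),
    siegel_congr hs _ h0 (add_neg_cancel w), siegel_zero']

/-- The group of the `1 ⊗ siegel s w`. -/
def Es (S : TSt t QU QW Q) (X : Subgroup (V ≃ₗ[F] V)) {s : W} (hs : QW s = 0) : Subgroup X where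
  carrier := {g | ∃ (w : W) (hw : polar QW s w = 0), (g : V ≃ₗ[F] V) = rW S.ten (siegel QW s w hs hw)}
  one_mem' := ⟨0, polar_zero_right _ _, by rw [siegel_zero', map_one]; rfl⟩
  mul_mem' := by
    rintro g g' ⟨w, hw, h⟩ ⟨w', hw', h'⟩
    have h3 : polar QW s (w + w') = 0 := by rw [polar_add_right, hw, hw', add_zero]
    refine ⟨w + w', h3, ?_⟩
    rw [← siegel_mul hs hw hw' h3, map_mul, ← h, ← h']
    rfl
  inv_mem' := by
    rintro g ⟨w, hw, h⟩
    have h3 : polar QW s (-w) = 0 := by rw [polar_neg_right, hw, neg_zero]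
    refine ⟨-w, h3, ?_⟩
    rw [← siegel_inv' hs hw h3, map_inv, ← h]
    rfl

theorem mem_Es {s : W} {hs : QW s = 0} {g : X} : g ∈ Es S X hs ↔
    ∃ (w : W) (hw : polar QW s w = 0), (g : V ≃ₗ[F] V) = rW S.ten (siegel QW s w hs hw) := Iff.rfl

instance isMulCommutative_Es {s : W} {hs : QW s = 0} : IsMulCommutative (Es S X hs) := by
  refine ⟨⟨fun g g' => ?_⟩⟩
  obtain ⟨w, hw, h⟩ := g.2
  obtain ⟨w', hw', h'⟩ := g'.2
  apply Subtype.ext
  apply Subtype.ext
  show ((g : X) : V ≃ₗ[F] V) * ((g' : X) : V ≃ₗ[F] V) = ((g' : X) : V ≃ₗ[F] V) * ((g : X) : V ≃ₗ[F] V)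
  have h3 : polar QW s (w + w') = 0 := by rw [polar_add_right, hw, hw', add_zero]
  have h4 : polar QW s (w' + w) = 0 := by rw [polar_add_right, hw, hw', add_zero]
  rw [h, h', ← map_mul, ← map_mul, siegel_mul hs hw hw' h3, siegel_mul hs hw' hw h4]
  exact congrArg _ (siegel_congr hs _ _ (add_comm w w'))

/-- The pointwise stabiliser of `a ⊗ W`. -/
def Ka (t : U →ₗ[F] W →ₗ[F] V) (X : Subgroup (V ≃ₗ[F] V)) (a : U) : Subgroup X where
  carrier := {g | ∀ w, (g : V ≃ₗ[F] V) (t a w) = t a w}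
  one_mem' := fun w => rfl
  mul_mem' := by
    intro g g' h h' w
    show (g : V ≃ₗ[F] V) ((g' : V ≃ₗ[F] V) (t a w)) = t a w
    rw [h', h]
  inv_mem' := by
    intro g h w
    show (g : V ≃ₗ[F] V)⁻¹ (t a w) = t a w
    nth_rewrite 1 [← h w]
    exact LinearEquiv.symm_apply_apply _ _

theorem mem_Ka {a : U} {g : X} : g ∈ Ka t X a ↔ ∀ w, (g : V ≃ₗ[F] V) (t a w) = t a w := Iff.rfl

end Cfsg.Agent.H932.Three
end

-- part: H932/ThreeMain
section
/-!
`O₃ ⊗ O₄⁻` in `Ω₁₂⁻(q)`, `q ≥ 5` odd: a proper overgroup of the tensor group is contained in the tensor group.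
-/

set_option autoImplicit false
set_option linter.unusedSimpArgs false
set_option linter.unusedSectionVars false

namespace Cfsg.Agent.H932.Three

open QuadraticMap hiding proj
open Cfsg.Agent.LieClassical.OrthCore Cfsg.Agent.LieClassical.OrthTrans Cfsg.Agent.H883.Root
open Cfsg.Agent Cfsg.Agent.H882.Ten Cfsg.Agent.H882.Good

variable {F : Type*} {U : Type*} {W : Type*} {V : Type*} [Field F] [AddCommGroup U] [Module F U]
  [AddCommGroup W] [Module F W] [AddCommGroup V] [Module F V]
  {t : U →ₗ[F] W →ₗ[F] V} {QU : QuadraticForm F U} {QW : QuadraticForm F W} {Q : QuadraticForm F V}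
  {X : Subgroup (V ≃ₗ[F] V)} {S : TSt t QU QW Q}

theorem pgroup_Es {p : ℕ} [CharP F p] {s : W} (hs : QW s = 0) : IsPGroup p (Es S X hs) := by
  rintro ⟨g, w, hw, h⟩
  refine ⟨1, ?_⟩
  apply Subtype.ext
  apply Subtype.ext
  show (g : V ≃ₗ[F] V) ^ (p ^ 1) = 1
  have h0 : (p ^ 1) • w = 0 := by
    rw [pow_one, ← Nat.cast_smul_eq_nsmul F, CharP.cast_eq_zero, zero_smul]
  have hp : polar QW s ((p ^ 1) • w) = 0 := by rw [h0]; exact polar_zero_right _ _
  rw [h, ← map_pow, siegel_pow hs hw _ hp, siegel_congr hs hp (polar_zero_right _ _) h0, siegel_zero', map_one]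

namespace Ov3

variable (hX : Ov3 S X)

include hX

/-- a nonsingular vector orthogonal to `s, s', w0` -/
theorem exists_w1 {s s' w0 : W} (hyp : Hyp QW s s') :
    ∃ w, polar QW s w = 0 ∧ polar QW s' w = 0 ∧ polar QW w0 w = 0 ∧ QW w ≠ 0 := by
  have hfW := hX.finW
  obtain ⟨c, hc0, hc⟩ := exists_perp_ne (Q := QW) ![s, s', w0] (by rw [hX.d4]; norm_num)
  have h0 : polar QW s c = 0 := hc 0
  have h1 : polar QW s' c = 0 := hc 1
  have h2 : polar QW w0 c = 0 := hc 2
  refine ⟨c, h0, h1, h2, fun hcn => hc0 ?_⟩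
  obtain ⟨d, rfl⟩ := hX.an s c hyp.left hyp.left_ne h0 hcn
  rw [polar_smul_right, hyp.pair', smul_eq_mul, mul_one] at h1
  rw [h1, zero_smul]

theorem not_cyclic {s s' : W} (hyp : Hyp QW s s') : ¬ IsCyclic (Es S X hyp.left) := by
  intro hc
  have := hX.finX
  obtain ⟨g, hg⟩ := hc.exists_generator
  obtain ⟨w, hw, hgw⟩ := g.2
  obtain ⟨u0, u1, hu⟩ := hX.sU
  have key : ∀ x, polar QW s x = 0 → ∃ (i : F) (c : F), x = i • w + c • s := by
    intro x hx
    let e : Es S X hyp.left := ⟨⟨rW S.ten (siegel QW s x hyp.left hx), hX.rWs_mem _ _⟩, x, hx, rfl⟩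
    obtain ⟨n, hn⟩ := mem_powers_iff_mem_zpowers.2 (hg e)
    have h1 : rW S.ten (siegel QW s w hyp.left hw) ^ n = rW S.ten (siegel QW s x hyp.left hx) := by
      have h2 := congrArg (fun z : Es S X hyp.left => ((z : X) : V ≃ₗ[F] V)) hn
      rw [← hgw]
      exact h2
    have hn' : polar QW s (n • w) = 0 := by
      rw [← Nat.cast_smul_eq_nsmul F, polar_smul_right, hw, smul_zero]
    rw [← map_pow, siegel_pow hyp.left hw n hn'] at h1
    have h2 := LinearEquiv.congr_fun h1 (t u0 s')
    rw [rW_apply, rW_apply] at h2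
    have h3 := t_right_inj S.ten hu.left_ne h2
    rw [siegel_apply, siegel_apply, hyp.pair, one_smul, one_smul, mul_one, mul_one] at h3
    refine ⟨(n : F), (polar QW x s' + QW x) - (polar QW (n • w) s' + QW (n • w)), ?_⟩
    rw [Nat.cast_smul_eq_nsmul, sub_smul, add_smul, add_smul]
    have h4 : x = (s' + x - polar QW x s' • s - QW x • s) - s' + polar QW x s' • s + QW x • s := by abel
    refine h4.trans ?_
    rw [← h3]
    abel
  obtain ⟨w0, h00, h01, h0n⟩ := hX.exists_w0 hyp
  obtain ⟨w1, h10, h11, h12, h1n⟩ := hX.exists_w1 (w0 := w0) hyp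
  obtain ⟨i, c, hi⟩ := key w0 h00
  obtain ⟨j, d, hj⟩ := key w1 h10
  have hws : polar QW w s = 0 := by rw [polar_comm]; exact hw
  have hss : polar QW s s = 0 := polar_self_of_sing hyp.left
  have hQ : ∀ i c : F, QW (i • w + c • s) = i * i * QW w := by
    intro i c
    rw [Q_add, QuadraticMap.map_smul, QuadraticMap.map_smul, hyp.left, polar_smul_left, polar_smul_right, hws]
    simp
  rw [hi, hQ] at h0n
  rw [hj, hQ] at h1n
  rw [hi, hj] at h12
  simp only [polar_add_left, polar_add_right, polar_smul_left, polar_smul_right, hws, hss, hw, polar_self',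
    smul_eq_mul, mul_zero, add_zero] at h12
  have hi0 : i ≠ 0 := by rintro rfl; simp at h0n
  have hj0 : j ≠ 0 := by rintro rfl; simp at h1n
  have hw0 : QW w ≠ 0 := by
    intro h; rw [h] at h0n; simp at h0n
  exact (mul_ne_zero hi0 (mul_ne_zero hj0 (mul_ne_zero S.two hw0))) (by linear_combination h12)

theorem Ka_le (hne : ¬ E Q ≤ X) {a : U} (ha : QU a ≠ 0) : Ka t X a ≤ HH S X := by
  have hfin := hX.fin
  have hfX := hX.finX
  have h2 := S.two
  obtain ⟨u0, u1, hu⟩ := hX.sU
  obtain ⟨s, s', hyp⟩ := hX.sW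
  have hntW : Nontrivial W := ⟨s, 0, hyp.left_ne⟩
  have hntU : Nontrivial U := ⟨u0, 0, hu.left_ne⟩
  obtain ⟨p, hp⟩ := CharP.exists F
  have hpp : Fact p.Prime := ⟨(CharP.char_is_prime_or_zero F p).resolve_right
    (fun h => (CharP.char_ne_zero_of_finite F p) h)⟩
  refine le_of_cop (p := p) (Es S X hyp.left) (Ka t X a) (hX.not_cyclic hyp) (pgroup_Es _) ?_ ?_ ?_
  · rintro e ⟨w, hw, he⟩ he1
    have hwn : QW w ≠ 0 := by
      intro h0
      obtain ⟨c, rfl⟩ := hX.an s w hyp.left hyp.left_ne hw h0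
      apply he1
      apply Subtype.ext
      rw [he]
      have : siegel QW s (c • s) hyp.left hw = 1 := by
        ext v
        rw [siegel_apply, QuadraticMap.map_smul, hyp.left, polar_smul_left, smul_smul]
        simp [mul_comm]
      rw [this, map_one]
      rfl
    have e1 : e = ⟨rW S.ten (siegel QW s w hyp.left hw), hX.rWs_mem hyp.left hw⟩ := Subtype.ext he
    rw [e1]
    exact hX.gd_siegel hne hyp.left hyp.left_ne hw hwn
  · rintro e ⟨w, hw, he⟩ k hk x
    show (e : V ≃ₗ[F] V) ((k : V ≃ₗ[F] V) ((e : V ≃ₗ[F] V)⁻¹ (t a x))) = t a x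
    have e1 : (e : V ≃ₗ[F] V)⁻¹ (t a x) = t a ((siegel QW s w hyp.left hw)⁻¹ x) := by
      rw [he, ← map_inv, rW_apply]
    rw [e1, hk, ← e1]
    exact LinearEquiv.apply_symm_apply _ _
  · intro hdvd
    obtain ⟨g, hg⟩ := exists_prime_orderOf_dvd_card' p hdvd
    obtain ⟨g0, hgK, hgH⟩ := g
    obtain ⟨m, hmX⟩ := g0
    have hgp := pow_orderOf_eq_one (⟨⟨m, hmX⟩, hgK, hgH⟩ : (Ka t X a ⊓ HH S X : Subgroup X))
    rw [hg] at hgp
    have hmp : m ^ p = 1 := congrArg (fun z : (Ka t X a ⊓ HH S X : Subgroup X) => ((z : X) : V ≃ₗ[F] V)) hgp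
    have hm1 : m ≠ 1 := by
      intro h
      have : (⟨⟨m, hmX⟩, hgK, hgH⟩ : (Ka t X a ⊓ HH S X : Subgroup X)) = 1 := Subtype.ext (Subtype.ext h)
      rw [this, orderOf_one] at hg
      exact hpp.out.one_lt.ne hg
    have hmK : ∀ w, m (t a w) = t a w := hgK
    obtain ⟨k, l, hkl⟩ : m ∈ TT t S.ten := mem_HH.1 hgH
    rw [hkl] at hmp
    obtain ⟨k', l', hkl', hk', hl'⟩ := exists_tm_pow_eq_one S.ten hmp
    have hmT : m = tm S.ten k' l' := by rw [hkl, hkl']
    have hmO : m ∈ O Q := hX.le hmX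
    obtain ⟨c, hc0, hkc, hlc⟩ := S.sim_of_mem_O (k := k') (l := l') (by rw [← hmT]; exact hmO)
    obtain ⟨hc1, hk'O⟩ := isometry_of_pow h2 S.ndU hkc hk'
    have ha0 : a ≠ 0 := by
      rintro rfl
      exact ha (QuadraticMap.map_zero QU)
    obtain ⟨y, hy⟩ := S.ndU.exists_polar_eq ha0 1
    set β := polar QU y (k' a) with hβ
    have hlw : ∀ w, β • l' w = w := by
      intro w
      have h3 := congrArg (S.cu y) (hmK w)
      rw [hmT, tm_apply, S.cu_t, S.cu_t, polar_comm QU y a, hy, one_smul] at h3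
      exact h3
    have hlp : ∀ n : ℕ, ∀ w, β ^ n • (l' ^ n) w = w := by
      intro n
      induction n with
      | zero => intro w; simp
      | succ n ih =>
        intro w
        rw [pow_succ, pow_succ', mul_smul]
        show β ^ n • β • l' ((l' ^ n) w) = w
        rw [hlw, ih]
    obtain ⟨w0, hw0⟩ := exists_ne (0 : W)
    have hβp : β ^ p = 1 := by
      have h3 := hlp p w0
      rw [hl'] at h3
      have h4 : (β ^ p - 1) • w0 = 0 := by
        rw [sub_smul, one_smul, sub_eq_zero]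
        exact h3
      exact sub_eq_zero.1 ((smul_eq_zero.1 h4).resolve_right hw0)
    have hβ1 : β = 1 := by
      apply frobenius_inj F p
      show β ^ p = 1 ^ p
      rw [hβp, one_pow]
    have hl1 : l' = 1 := by
      ext w
      have := hlw w
      rw [hβ1, one_smul] at this
      exact this
    have hka : k' a = a := by
      have h3 := hmK w0
      rw [hmT, tm_apply, hl1] at h3
      exact t_left_inj S.ten hw0 h3
    have hk1 := eq_one_of_fix S.ndU h2 hX.d3 hk'O hk' ha hka
    apply hm1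
    rw [hmT, hk1, hl1, tm_one]

/-- **The centraliser of `k_a ⊗ 1`.** -/
theorem cent_kk (hne : ¬ E Q ≤ X) {a : U} (ha : QU a ≠ 0) {g : V ≃ₗ[F] V} (hg : g ∈ X)
    (hc : g * rU S.ten (kk QU a ha) = rU S.ten (kk QU a ha) * g) : g ∈ TT t S.ten := by
  have hfW := hX.finW
  have h2 := S.two
  obtain ⟨s, s', hyp⟩ := hX.sW
  have ha0 : a ≠ 0 := by
    rintro rfl
    exact ha (QuadraticMap.map_zero QU)
  have hfix : ∀ w, g (t a w) = t a ((2 * QU a)⁻¹ • S.cu a (g (t a w))) := by
    intro w
    apply fixed_kk S ha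
    have h3 : g (rU S.ten (kk QU a ha) (t a w)) = rU S.ten (kk QU a ha) (g (t a w)) :=
      LinearEquiv.congr_fun hc (t a w)
    rw [t_kk S ha] at h3
    exact h3.symm
  let γ0 : W →ₗ[F] W := (2 * QU a)⁻¹ • (S.cu a ∘ₗ (g : V →ₗ[F] V) ∘ₗ t a)
  have hγ0 : ∀ w, g (t a w) = t a (γ0 w) := hfix
  have hinj : Function.Injective γ0 := by
    rw [← LinearMap.ker_eq_bot, LinearMap.ker_eq_bot']
    intro w hw
    have h3 := hγ0 w
    rw [hw, map_zero] at h3
    have h4 := (LinearEquiv.map_eq_zero_iff g).1 h3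
    by_contra hw0
    exact t_ne S.ten ha0 hw0 h4
  let γ : W ≃ₗ[F] W := LinearEquiv.ofInjectiveEndo γ0 hinj
  have hγ : ∀ w, g (t a w) = t a (γ w) := hγ0
  have hgO := hX.le hg
  have hγO : γ ∈ O QW := by
    refine mem_O_of_polar h2 fun x y => ?_
    have h3 := polar_map hgO (t a x) (t a y)
    rw [hγ, hγ, S.pol, S.pol] at h3
    rw [polar_self'] at h3
    exact mul_left_cancel₀ (mul_ne_zero h2 ha) h3
  obtain ⟨w, hw, -, hwn⟩ := hX.exists_w0 hyp
  set d := rW S.ten (siegel QW s w hyp.left hw) with hd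
  have hdX : d ∈ X := hX.rWs_mem _ _
  have hs1 : QW (γ s) = 0 := by rw [hγO]; exact hyp.left
  have hw1 : polar QW (γ s) (γ w) = 0 := by rw [polar_map hγO]; exact hw
  have hconj := siegel_conj hγO hyp.left hw hs1 hw1
  set d' := rW S.ten (siegel QW (γ s) (γ w) hs1 hw1) with hd'
  have hd'X : d' ∈ X := hX.rWs_mem _ _
  have hgi : ∀ v, g (g⁻¹ v) = v := fun v => LinearEquiv.apply_symm_apply g v
  have hig : ∀ v, g⁻¹ (g v) = v := fun v => LinearEquiv.symm_apply_apply g v
  have hkey : ∀ x, (g * d * g⁻¹) (t a x) = d' (t a x) := by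
    intro x
    obtain ⟨y, rfl⟩ := γ.surjective x
    rw [← hγ]
    show g (d (g⁻¹ (g (t a y)))) = d' (g (t a y))
    rw [hig, hγ, hd, hd', rW_apply, rW_apply, hγ, ← hconj]
    show t a (γ (siegel QW s w hyp.left hw y)) = t a (γ (siegel QW s w hyp.left hw (γ⁻¹ (γ y))))
    have h4 : γ⁻¹ (γ y) = y := LinearEquiv.symm_apply_apply γ y
    rw [h4]
  have hmem : d'⁻¹ * (g * d * g⁻¹) ∈ X :=
    X.mul_mem (X.inv_mem hd'X) (X.mul_mem (X.mul_mem hg hdX) (X.inv_mem hg))
  have hK : (⟨_, hmem⟩ : X) ∈ Ka t X a := by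
    intro x
    show d'⁻¹ ((g * d * g⁻¹) (t a x)) = t a x
    rw [hkey]
    exact LinearEquiv.symm_apply_apply _ _
  have hT : d'⁻¹ * (g * d * g⁻¹) ∈ TT t S.ten := mem_HH.1 (hX.Ka_le hne ha hK)
  have hd'T : d' ∈ TT t S.ten := tm_mem_TT _ _ _
  have h5 := (TT t S.ten).mul_mem hd'T hT
  rw [mul_inv_cancel_left] at h5
  exact hX.ti hne hyp.left hyp.left_ne hw hwn hg h5

theorem finrank_fix_kk {a : U} (ha : QU a ≠ 0) :
    Module.finrank F (LinearMap.ker ((rU S.ten (kk QU a ha) : V →ₗ[F] V) - LinearMap.id)) = 4 := by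
  have hfW := hX.finW
  have ha0 : a ≠ 0 := by
    rintro rfl
    exact ha (QuadraticMap.map_zero QU)
  have hinj : Function.Injective (t a) := fun x y h => t_right_inj S.ten ha0 h
  have : LinearMap.ker ((rU S.ten (kk QU a ha) : V →ₗ[F] V) - LinearMap.id) = LinearMap.range (t a) := by
    ext v
    rw [LinearMap.mem_ker, LinearMap.sub_apply, sub_eq_zero, LinearMap.mem_range]
    constructor
    · intro h
      exact ⟨_, (fixed_kk S ha h).symm⟩
    · rintro ⟨w, rfl⟩
      exact t_kk S ha w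
  rw [this, LinearMap.finrank_range_of_inj hinj, hX.d4]

/-- **The involutions `k_a ⊗ 1` are good.** -/
theorem gd_kk (hne : ¬ E Q ≤ X) {a : U} (ha : QU a ≠ 0) :
    Gd (HH S X) (⟨rU S.ten (kk QU a ha), hX.kU a ha⟩ : X) := by
  obtain ⟨s, s', hyp⟩ := hX.sW
  refine Gd.of_cent (mem_HH.2 (tm_mem_TT _ _ _)) ?_ ?_
  · intro c hc
    exact mem_HH.2 (hX.cent_kk hne ha c.2 (congrArg Subtype.val hc))
  · rintro ⟨g, hg⟩ hgs
    have hT : g * rU S.ten (kk QU a ha) * g⁻¹ ∈ TT t S.ten := mem_HH.1 hgs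
    obtain ⟨k, l, hkl⟩ := mem_TT.1 hT
    have hss : rU S.ten (kk QU a ha) * rU S.ten (kk QU a ha) = 1 := by rw [← map_mul, kk_mul_self, map_one]
    have hy2 : ∀ v, tm S.ten k l (tm S.ten k l v) = v := by
      intro v
      have h3 : (g * rU S.ten (kk QU a ha) * g⁻¹) * (g * rU S.ten (kk QU a ha) * g⁻¹) = 1 := by
        calc (g * rU S.ten (kk QU a ha) * g⁻¹) * (g * rU S.ten (kk QU a ha) * g⁻¹)
            = g * (rU S.ten (kk QU a ha) * rU S.ten (kk QU a ha)) * g⁻¹ := by group
          _ = 1 := by rw [hss]; group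
      rw [hkl] at h3
      exact LinearEquiv.congr_fun h3 v
    have hfr : Module.finrank F (LinearMap.ker ((tm S.ten k l : V →ₗ[F] V) - LinearMap.id)) = 4 := by
      rw [← hX.finrank_fix_kk ha, ← hkl]
      have hmap : LinearMap.ker (((g * rU S.ten (kk QU a ha) * g⁻¹ : V ≃ₗ[F] V) : V →ₗ[F] V) - LinearMap.id) =
          (LinearMap.ker ((rU S.ten (kk QU a ha) : V →ₗ[F] V) - LinearMap.id)).map (g : V →ₗ[F] V) := by
        ext v
        rw [LinearMap.mem_ker, LinearMap.sub_apply, sub_eq_zero, Submodule.mem_map]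
        have hgi : ∀ v, g (g⁻¹ v) = v := fun v => LinearEquiv.apply_symm_apply g v
        have hig : ∀ v, g⁻¹ (g v) = v := fun v => LinearEquiv.symm_apply_apply g v
        constructor
        · intro h
          have h4 : g (rU S.ten (kk QU a ha) (g⁻¹ v)) = v := h
          refine ⟨g⁻¹ v, ?_, hgi v⟩
          rw [LinearMap.mem_ker, LinearMap.sub_apply, sub_eq_zero]
          show rU S.ten (kk QU a ha) (g⁻¹ v) = g⁻¹ v
          have h5 := congrArg (g⁻¹ : V ≃ₗ[F] V) h4
          rw [hig] at h5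
          exact h5
        · rintro ⟨y, hy, rfl⟩
          rw [LinearMap.mem_ker, LinearMap.sub_apply, sub_eq_zero] at hy
          have hy' : rU S.ten (kk QU a ha) y = y := hy
          show g (rU S.ten (kk QU a ha) (g⁻¹ (g y))) = g y
          rw [hig, hy']
      rw [hmap]
      exact LinearEquiv.finrank_map_eq g _
    obtain ⟨c, hc⟩ := scalar_of_fix S.ten S.two hX.d3 hX.d4 hy2 hfr
    obtain ⟨w, hw, -, hwn⟩ := hX.exists_w0 hyp
    refine ⟨_, hX.gd_siegel hne hyp.left hyp.left_ne hw hwn, ?_⟩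
    apply Subtype.ext
    show rW S.ten (siegel QW s w hyp.left hw) * (g * rU S.ten (kk QU a ha) * g⁻¹) =
      (g * rU S.ten (kk QU a ha) * g⁻¹) * rW S.ten (siegel QW s w hyp.left hw)
    rw [hkl]
    refine ext_t' S.ten fun u x => ?_
    show rW S.ten (siegel QW s w hyp.left hw) (tm S.ten k l (t u x)) =
      tm S.ten k l (rW S.ten (siegel QW s w hyp.left hw) (t u x))
    rw [tm_apply, rW_apply, rW_apply, tm_apply, hc, hc, map_smul]

/-- conjugates of `k_a ⊗ 1` in the tensor group -/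
theorem conj_kk {a : U} (ha : QU a ≠ 0) {m : V ≃ₗ[F] V} (hm : m ∈ X) (hmT : m ∈ TT t S.ten) :
    ∃ (b : U) (hb : QU b ≠ 0) (e : F), QU b = e * e * QU a ∧
      m * rU S.ten (kk QU a ha) * m⁻¹ = rU S.ten (kk QU b hb) := by
  obtain ⟨u0, u1, hu⟩ := hX.sU
  obtain ⟨s, s', hyp⟩ := hX.sW
  have hntW : Nontrivial W := ⟨s, 0, hyp.left_ne⟩
  have hntU : Nontrivial U := ⟨u0, 0, hu.left_ne⟩
  obtain ⟨k, l, rfl⟩ := hmT
  obtain ⟨c, hc0, hk, hl⟩ := S.sim_of_mem_O (hX.le hm)
  obtain ⟨e, he⟩ := sq_of_sim S.ndU hX.d3 hk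
  obtain ⟨hb, hkb⟩ := sim_kk S.two hc0 hk ha
  refine ⟨k a, hb, e, ?_, ?_⟩
  · rw [Q_eq_half S.two, Q_eq_half S.two a, hk, ← he]; ring
  · rw [← hkb]
    show tm S.ten k l * tm S.ten (kk QU a ha) 1 * (tm S.ten k l)⁻¹ = tm S.ten (k * kk QU a ha * k⁻¹) 1
    rw [tm_inv, ← tm_mul, ← tm_mul, mul_one, mul_inv_cancel]

/-- **A proper overgroup of the tensor group is contained in the tensor group.** -/
theorem le_TT (hne : ¬ E Q ≤ X) : X ≤ TT t S.ten := by
  have hfin := hX.fin
  have hfX := hX.finX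
  have h2 := S.two
  obtain ⟨u0, u1, hu⟩ := hX.sU
  -- two vectors with inequivalent norms
  have ha1 : QU (u0 + u1) ≠ 0 := by
    rw [Q_add, hu.left, hu.right, hu.pair]; simp
  set a1 := u0 + u1 with ha1d
  obtain ⟨b, c, hOB⟩ := exists_OB S.ndU h2 (by rw [hX.d3]) ha1
  obtain ⟨δ, hδ⟩ : ∃ δ : F, ¬ IsSquare δ := by
    apply FiniteField.exists_nonsquare
    intro h
    have : CharP F 2 := (ringChar.eq_iff).1 h
    exact h2 (CharP.cast_eq_zero F 2)
  have hδ0 : δ ≠ 0 := by
    rintro rfl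
    exact hδ ⟨0, by simp⟩
  obtain ⟨x, y, hxy⟩ := exists_sq_add_sq h2 hOB.na hOB.nb (δ * QU a1)
  set a2 := x • a1 + y • b with ha2d
  have hQ2 : QU a2 = δ * QU a1 := by
    rw [← hxy, ha2d, Q_add, QuadraticMap.map_smul, QuadraticMap.map_smul, polar_smul_left, polar_smul_right,
      hOB.ab]
    simp only [smul_eq_mul, mul_zero, add_zero]
    ring
  have ha2 : QU a2 ≠ 0 := by rw [hQ2]; exact mul_ne_zero hδ0 ha1
  set s1 : X := ⟨rU S.ten (kk QU a1 ha1), hX.kU a1 ha1⟩ with hs1
  set s2 : X := ⟨rU S.ten (kk QU a2 ha2), hX.kU a2 ha2⟩ with hs2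
  have hsq : ∀ (a : U) (ha : QU a ≠ 0), (⟨rU S.ten (kk QU a ha), hX.kU a ha⟩ : X) *
      ⟨rU S.ten (kk QU a ha), hX.kU a ha⟩ = 1 := by
    intro a ha
    apply Subtype.ext
    show rU S.ten (kk QU a ha) * rU S.ten (kk QU a ha) = 1
    rw [← map_mul, kk_mul_self, map_one]
  have hG1 := hX.gd_kk hne ha1
  have hG2 := hX.gd_kk hne ha2
  -- injectivity
  obtain ⟨s, s', hyp⟩ := hX.sW
  have hinj : ∀ k k' : U ≃ₗ[F] U, rU S.ten k = rU S.ten k' → k = k' := by
    intro k k' h
    ext u
    have h3 := LinearEquiv.congr_fun h (t u s)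
    rw [rU_apply, rU_apply] at h3
    exact t_left_inj S.ten hyp.left_ne h3
  -- products
  have hprod : ∀ (a : U) (ha : QU a ≠ 0), ∀ h ∈ HH S X, ∀ j,
      j = s2 * (h * (⟨rU S.ten (kk QU a ha), hX.kU a ha⟩ : X) * h⁻¹) → j * j = 1 → j ≠ 1 →
      ∀ c, c * j = j * c → c ∈ HH S X := by
    rintro a ha ⟨h, hhX⟩ hh ⟨j, hjX⟩ hj hjj hj1 ⟨c, hcX⟩ hc
    obtain ⟨b, hb, -, -, hbe⟩ := hX.conj_kk ha hhX (mem_HH.1 hh)
    have hj' : j = rU S.ten (kk QU a2 ha2 * kk QU b hb) := by
      rw [map_mul, ← hbe]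
      exact congrArg Subtype.val hj
    have h3 : (kk QU a2 ha2 * kk QU b hb) * (kk QU a2 ha2 * kk QU b hb) = 1 := by
      apply hinj
      rw [map_mul, ← hj', map_one]
      exact congrArg Subtype.val hjj
    have h4 : kk QU a2 ha2 * kk QU b hb ≠ 1 := by
      intro h5
      apply hj1
      apply Subtype.ext
      show j = 1
      rw [hj', h5, map_one]
    obtain ⟨d, hd, hdd⟩ := kk_mul_kk S.ndU h2 hX.d3 ha2 hb h3 h4
    refine mem_HH.2 (hX.cent_kk hne hd hcX ?_)
    rw [← hdd, ← hj']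
    exact congrArg Subtype.val hc
  intro g hg
  have hfinal := top_of_pair (H := HH S X) s1 s2 (hsq a1 ha1) (hsq a2 ha2) hG1 hG2 ?_ (hprod a1 ha1)
    (hprod a2 ha2) ⟨g, hg⟩
  · exact mem_HH.1 hfinal
  · rintro ⟨h, hh⟩ he
    have hhT : (⟨h, hh⟩ : X) ∈ HH S X := by
      refine hG1.2 _ ?_
      rw [he]
      exact hG2.1
    obtain ⟨b, hb, e, hbe, hconj⟩ := hX.conj_kk ha1 hh (mem_HH.1 hhT)
    have h3 : rU S.ten (kk QU b hb) = rU S.ten (kk QU a2 ha2) := by
      rw [← hconj]
      exact congrArg Subtype.val he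
    have h4 := hinj _ _ h3
    have h5 : kk QU b hb a2 = a2 := by rw [h4, kk_self]
    have h6 := smul_of_kk h2 hb h5
    set κ := (2 * QU b)⁻¹ * polar QU b a2
    have h7 : QU a2 = κ * κ * QU b := by
      nth_rewrite 1 [h6]
      rw [QuadraticMap.map_smul, smul_eq_mul]
    rw [hQ2, hbe] at h7
    apply hδ
    refine ⟨κ * e, mul_right_cancel₀ ha1 ?_⟩
    rw [h7]; ring

end Ov3

end Cfsg.Agent.H932.Three
end
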